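import Cfsg.Agent.H817.CrossedHom

/-!
# Crossed homomorphisms of `Ω⁻(4,2)` into the natural module

Every crossed homomorphism of the commutator subgroup of the isometry group of the elliptic
quadratic form in dimension 4 over `ZMod 2` into the natural module is principal.
-/

set_option autoImplicit false

namespace Cfsg.Agent.H817.CrossedFour

open Cfsg Matrix
open scoped commutatorElement
open Cfsg.Agent.SporadicStructure.OrthTransTwo
open Cfsg.Agent.H817.CrossedHom

/-- The polar form of the minus-type form. -/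
def polarMinus (m : ℕ) (x y : (Fin m ⊕ Fin m) ⊕ Fin 2 → ZMod 2) : ZMod 2 :=
  (∑ i : Fin m, (x (.inl (.inl i)) * y (.inl (.inr i)) + y (.inl (.inl i)) * x (.inl (.inr i)))) +
    (x (.inr 0) * y (.inr 1) + x (.inr 1) * y (.inr 0))

theorem aux1 : ∀ a b c d : ZMod 2, (a + b) ^ 2 + 1 * (a + b) * (c + d) + 1 * (c + d) ^ 2 =
    (a ^ 2 + 1 * a * c + 1 * c ^ 2) + (b ^ 2 + 1 * b * d + 1 * d ^ 2) + (a * d + c * b) := by
  decide

theorem isNdForm_minus (m : ℕ) : IsNdForm (quadFormMinus m (ZMod 2) 1 1) (polarMinus m) := by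
  refine ⟨?_, ?_, ?_⟩
  · intro x y
    unfold quadFormMinus polarMinus
    simp only [Pi.add_apply]
    rw [aux1]
    have : ∑ i : Fin m, (x (.inl (.inl i)) + y (.inl (.inl i))) *
        (x (.inl (.inr i)) + y (.inl (.inr i))) =
        ∑ i : Fin m, x (.inl (.inl i)) * x (.inl (.inr i)) +
        ∑ i : Fin m, y (.inl (.inl i)) * y (.inl (.inr i)) +
        ∑ i : Fin m, (x (.inl (.inl i)) * y (.inl (.inr i)) +
          y (.inl (.inl i)) * x (.inl (.inr i))) := by
      rw [← Finset.sum_add_distrib, ← Finset.sum_add_distrib]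
      apply Finset.sum_congr rfl
      intro i _
      ring
    rw [this]
    ring
  · intro x y z
    unfold polarMinus
    simp only [Pi.add_apply]
    have : ∑ i : Fin m, ((x (.inl (.inl i)) + y (.inl (.inl i))) * z (.inl (.inr i)) +
        z (.inl (.inl i)) * (x (.inl (.inr i)) + y (.inl (.inr i)))) =
        ∑ i : Fin m, (x (.inl (.inl i)) * z (.inl (.inr i)) +
          z (.inl (.inl i)) * x (.inl (.inr i))) +
        ∑ i : Fin m, (y (.inl (.inl i)) * z (.inl (.inr i)) +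
          z (.inl (.inl i)) * y (.inl (.inr i))) := by
      rw [← Finset.sum_add_distrib]
      apply Finset.sum_congr rfl
      intro i _
      ring
    rw [this]
    ring
  · intro x hx
    ext j
    rcases j with (i | i) | i
    · have := hx (Pi.single (.inl (.inr i)) 1)
      unfold polarMinus at this
      rw [Finset.sum_eq_single i] at this
      · simpa using this
      · intro j _ hj
        simp [hj]
      · simp
    · have := hx (Pi.single (.inl (.inl i)) 1)
      unfold polarMinus at this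
      rw [Finset.sum_eq_single i] at this
      · simpa using this
      · intro j _ hj
        simp [hj]
      · simp
    · fin_cases i
      · have := hx (Pi.single (.inr 1) 1)
        unfold polarMinus at this
        simpa using this
      · have := hx (Pi.single (.inr 0) 1)
        unfold polarMinus at this
        simpa using this

section Gen

variable {ι : Type} [Fintype ι] [DecidableEq ι]
variable {Q : (ι → ZMod 2) → ZMod 2} {B : (ι → ZMod 2) → (ι → ZMod 2) → ZMod 2}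

/-- generation step for forms of Witt index at most one -/
theorem step' (h : IsNdForm Q B)
    (hW : ∀ a b : ι → ZMod 2, Q a = 0 → Q b = 0 → B a b = 0 → a = 0 ∨ b = 0 ∨ a = b)
    (g : isometryGroup (ZMod 2) Q) (hg : g ≠ 1) :
    ∃ t ∈ T h, (∀ x, act g x = x → act (t * g) x = x) ∧ ∃ u, act g u ≠ u ∧ act (t * g) u = u := by
  by_cases hcase : ∃ u, Q (act g u + u) = 1
  · obtain ⟨u, hu⟩ := hcase
    have hBu : B (act g u) u = 1 := by
      rw [h.hQ, Q_act g u] at hu
      exact zaux6 _ _ hu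
    refine ⟨tau h _ hu, tau_mem h hu, ?_, u, ?_, ?_⟩
    · intro x hx
      rw [act_mul, hx, act_tau, h.hadd]
      have : B (act g u) x = B u x := by
        conv_lhs => rw [← hx]
        exact B_act h g u x
      rw [this, zadd_self, zero_smul, add_zero]
    · intro hcon
      rw [hcon, vadd_self, Q_zero h] at hu
      exact zero_ne_one hu
    · rw [act_mul, act_tau, h.hadd, B_self h, zero_add, B_symm h, hBu, one_smul, ← add_assoc,
        vadd_self, zero_add]
  · exfalso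
    have hQ0 : ∀ u, Q (act g u + u) = 0 := by
      intro u
      rcases z_cases (Q (act g u + u)) with h0 | h0
      · exact h0
      · exact absurd ⟨u, h0⟩ hcase
    have hB0 : ∀ u, B (act g u) u = 0 := by
      intro u
      have := hQ0 u
      rw [h.hQ, Q_act g u] at this
      exact zaux7 _ _ this
    have hsym : ∀ u v, B (act g u) v = B u (act g v) := by
      intro u v
      have := hB0 (u + v)
      rw [act_add, h.hadd, B_add_right h, B_add_right h, hB0, hB0, zero_add, add_zero,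
        B_symm h (act g v)] at this
      exact zaux8 _ _ this
    have hex : ∃ u, act g u ≠ u := by
      by_contra hcon
      push Not at hcon
      apply hg
      apply act_ext
      intro x
      rw [act_one, hcon]
    obtain ⟨u, hu⟩ := hex
    have hNu : act g u + u ≠ 0 := fun hcon => hu (add_left_cancel' hcon)
    obtain ⟨v, hv⟩ := exists_B_eq_one h hNu
    have hab : B (act g u + u) (act g v + v) = 0 := by
      rw [h.hadd, B_add_right h, B_add_right h, B_act h, hsym]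
      generalize B u v = p
      generalize B u (act g v) = q
      revert p q
      decide
    have hv' : B u (act g v + v) = 1 := by
      rw [h.hadd, hsym, ← B_add_right h] at hv
      exact hv
    rcases hW _ _ (hQ0 u) (hQ0 v) hab with h1 | h1 | h1
    · exact hNu h1
    · rw [h1, B_zero_right h] at hv'
      exact zero_ne_one hv'
    · rw [← h1, B_add_right h, B_self h, add_zero, ← hsym, hB0] at hv'
      exact zero_ne_one hv'

theorem T_eq_top' (h : IsNdForm Q B)
    (hW : ∀ a b : ι → ZMod 2, Q a = 0 → Q b = 0 → B a b = 0 → a = 0 ∨ b = 0 ∨ a = b) :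
    T h = ⊤ := by
  classical
  rw [Subgroup.eq_top_iff']
  intro g
  induction hn : (Finset.univ.filter (fun x => act g x ≠ x)).card using Nat.strong_induction_on
    generalizing g with
  | _ n ih =>
    by_cases hg : g = 1
    · rw [hg]; exact one_mem _
    obtain ⟨t, ht, hfix, u, hu1, hu2⟩ := step' h hW g hg
    have hlt : (Finset.univ.filter (fun x => act (t * g) x ≠ x)).card < n := by
      rw [← hn]
      apply Finset.card_lt_card
      rw [Finset.ssubset_iff_of_subset]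
      · exact ⟨u, by simpa using hu1, by simpa using hu2⟩
      · intro x hx
        simp only [Finset.mem_filter, Finset.mem_univ, true_and] at hx ⊢
        exact fun hx' => hx (hfix x hx')
    have h1 := ih _ hlt (t * g) rfl
    have h2 : g = t⁻¹ * (t * g) := by group
    rw [h2]
    exact mul_mem (inv_mem ht) h1

end Gen

abbrev I4 : Type := (Fin 1 ⊕ Fin 1) ⊕ Fin 2
abbrev Q4 : (I4 → ZMod 2) → ZMod 2 := quadFormMinus 1 (ZMod 2) 1 1
abbrev B4 : (I4 → ZMod 2) → (I4 → ZMod 2) → ZMod 2 := polarMinus 1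
abbrev h4 : IsNdForm Q4 B4 := isNdForm_minus 1

set_option synthInstance.maxSize 10000 in
theorem witt4 : ∀ a b : I4 → ZMod 2, Q4 a = 0 → Q4 b = 0 → B4 a b = 0 → a = 0 ∨ b = 0 ∨ a = b := by
  decide +kernel

set_option synthInstance.maxSize 10000 in
theorem common4 : ∀ a b : I4 → ZMod 2, Q4 a = 1 → Q4 b = 1 →
    ∃ u, Q4 u = 1 ∧ B4 a u = 1 ∧ B4 u b = 1 := by
  decide +kernel

theorem trans4 {v w : I4 → ZMod 2} (hv : Q4 v = 1) (hw : Q4 w = 1) :
    ∃ g : isometryGroup (ZMod 2) Q4, act g v = w := by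
  obtain ⟨u, hu, h1, h2⟩ := common4 v w hv hw
  obtain ⟨g, hg⟩ := tau_swap h4 hv hu h1
  obtain ⟨k, hk⟩ := tau_swap h4 hu hw h2
  exact ⟨k * g, by rw [act_mul, hg, hk]⟩

theorem mem4 {v w : I4 → ZMod 2} (hv : Q4 v = 1) (hw : Q4 w = 1) :
    tau h4 v hv * tau h4 w hw ∈ Omega (ZMod 2) Q4 := by
  obtain ⟨g, hg⟩ := trans4 hv hw
  have h1 : tau h4 w hw = g * tau h4 v hv * g⁻¹ := by
    rw [conj_tau]
    exact tau_congr h4 _ _ hg.symm
  have h2 : tau h4 v hv * tau h4 w hw = ⁅tau h4 v hv, g⁆ := by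
    rw [h1, commutatorElement_def, tau_inv]
    simp only [mul_assoc]
  rw [h2]
  exact Subgroup.commutator_mem_commutator (Subgroup.mem_top _) (Subgroup.mem_top _)

/-- the vector with coordinates -/
def vec (a b c d : ZMod 2) : I4 → ZMod 2 :=
  Sum.elim (Sum.elim (fun _ => a) (fun _ => b)) ![c, d]

/-- the five singular vectors -/
def e : Fin 5 → (I4 → ZMod 2) :=
  ![vec 1 0 0 0, vec 0 1 0 0, vec 1 1 1 0, vec 1 1 0 1, vec 1 1 1 1]

/-- the ten non-singular vectors -/
def u (i j : Fin 5) : I4 → ZMod 2 := e i + e j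

/-- the transvection as a function -/
def tf (w x : I4 → ZMod 2) : I4 → ZMod 2 := x + B4 w x • w

theorem u_one : ∀ i j : Fin 5, i ≠ j → Q4 (u i j) = 1 := by decide +kernel

/-- the transvection of `u i j` -/
def t (i j : Fin 5) (hij : i ≠ j) : isometryGroup (ZMod 2) Q4 := tau h4 (u i j) (u_one i j hij)

theorem act_t (i j : Fin 5) (hij : i ≠ j) (x : I4 → ZMod 2) : act (t i j hij) x = tf (u i j) x :=
  act_tau h4 _ _ x

/-- the 5-cycle -/
def x5 : isometryGroup (ZMod 2) Q4 :=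
  (t 0 1 (by decide) * t 1 2 (by decide)) * (t 2 3 (by decide) * t 3 4 (by decide))

def s1 : isometryGroup (ZMod 2) Q4 := t 1 4 (by decide) * t 2 3 (by decide)

def s2 : isometryGroup (ZMod 2) Q4 := t 1 2 (by decide) * t 3 4 (by decide)

def xf (x : I4 → ZMod 2) : I4 → ZMod 2 := tf (u 0 1) (tf (u 1 2) (tf (u 2 3) (tf (u 3 4) x)))
def f1 (x : I4 → ZMod 2) : I4 → ZMod 2 := tf (u 1 4) (tf (u 2 3) x)
def f2 (x : I4 → ZMod 2) : I4 → ZMod 2 := tf (u 1 2) (tf (u 3 4) x)

theorem act_x (v : I4 → ZMod 2) : act x5 v = xf v := by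
  simp only [x5, act_mul, act_t]; rfl

theorem act_s1 (v : I4 → ZMod 2) : act s1 v = f1 v := by
  simp only [s1, act_mul, act_t]; rfl

theorem act_s2 (v : I4 → ZMod 2) : act s2 v = f2 v := by
  simp only [s2, act_mul, act_t]; rfl

theorem x_fpf : ∀ v, xf v = v → v = 0 := by decide +kernel
theorem x_surj : ∀ w, ∃ v, xf v + v = w := by decide +kernel
theorem x_inv : ∀ v, xf (f1 (xf v)) = f1 v := by decide +kernel
theorem s_comm : ∀ v, f1 (f2 v) = f2 (f1 v) := by decide +kernel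
theorem s_sq : ∀ v, f2 (f2 v) = v := by decide +kernel
theorem sx_cube : ∀ v, f2 (xf (f2 (xf (f2 (xf v))))) = v := by decide +kernel
set_option synthInstance.maxSize 10000 in
theorem s_zero : ∀ w, f2 w = w → f1 w = w → w + (f2 (xf w) + f2 (xf (f2 (xf w)))) = 0 → w = 0 := by
  decide +kernel
theorem x_u : ∀ i j : Fin 5, xf (u i j) = u (i + 1) (j + 1) := by decide +kernel
theorem all_u : ∀ w : I4 → ZMod 2, Q4 w = 1 → ∃ i : Fin 5, w = u i (i + 1) ∨ w = u i (i + 2) := by
  decide +kernel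

theorem x_mem : x5 ∈ Omega (ZMod 2) Q4 := mul_mem (mem4 _ _) (mem4 _ _)
theorem s1_mem : s1 ∈ Omega (ZMod 2) Q4 := mem4 _ _
theorem s2_mem : s2 ∈ Omega (ZMod 2) Q4 := mem4 _ _

section Main

variable (f : Omega (ZMod 2) Q4 → (I4 → ZMod 2))
  (hf : ∀ g k : Omega (ZMod 2) Q4, f (g * k) = f g + act g.1 (f k))

theorem s1_ker (hx : x5 ∈ ker f hf) : s1 ∈ ker f hf := by
  obtain ⟨hxO, hx0⟩ := hx
  refine ⟨s1_mem, ?_⟩
  have h1 : (⟨x5, hxO⟩ * (⟨s1, s1_mem⟩ * ⟨x5, hxO⟩) : Omega (ZMod 2) Q4) = ⟨s1, s1_mem⟩ := by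
    apply Subtype.ext
    apply act_ext
    intro v
    show act (x5 * (s1 * x5)) v = act s1 v
    rw [act_mul, act_mul, act_x, act_s1, act_x, act_s1, x_inv]
  have h2 := hf ⟨x5, hxO⟩ (⟨s1, s1_mem⟩ * ⟨x5, hxO⟩)
  rw [h1, hf, hx0, act_zero, add_zero, zero_add] at h2
  apply x_fpf
  rw [← act_x]
  exact h2.symm

theorem s2_ker (hx : x5 ∈ ker f hf) : s2 ∈ ker f hf := by
  obtain ⟨_, h10⟩ := s1_ker f hf hx
  obtain ⟨hxO, hx0⟩ := hx
  refine ⟨s2_mem, ?_⟩
  apply s_zero
  · -- from `s2² = 1`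
    have h1 : (⟨s2, s2_mem⟩ * ⟨s2, s2_mem⟩ : Omega (ZMod 2) Q4) = 1 := by
      apply Subtype.ext
      apply act_ext
      intro v
      show act (s2 * s2) v = act 1 v
      rw [act_mul, act_s2, act_s2, s_sq, act_one]
    have h2 := hf ⟨s2, s2_mem⟩ ⟨s2, s2_mem⟩
    rw [h1, f_one f hf] at h2
    rw [← act_s2]
    exact (add_left_cancel' h2.symm).symm
  · have h1 : (⟨s1, s1_mem⟩ * ⟨s2, s2_mem⟩ : Omega (ZMod 2) Q4) =
        ⟨s2, s2_mem⟩ * ⟨s1, s1_mem⟩ := by
      apply Subtype.ext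
      apply act_ext
      intro v
      show act (s1 * s2) v = act (s2 * s1) v
      rw [act_mul, act_mul, act_s2, act_s1, act_s1, act_s2, s_comm]
    have h2 := hf ⟨s1, s1_mem⟩ ⟨s2, s2_mem⟩
    have h3 := hf ⟨s2, s2_mem⟩ ⟨s1, s1_mem⟩
    rw [h1, h3, h10, act_zero, add_zero, zero_add] at h2
    rw [← act_s1]
    exact h2.symm
  · set y : Omega (ZMod 2) Q4 := ⟨s2, s2_mem⟩ * ⟨x5, hxO⟩ with hy
    have hfy : f y = f ⟨s2, s2_mem⟩ := by rw [hy, hf, hx0, act_zero, add_zero]
    have hay : ∀ v, act y.1 v = f2 (xf v) := by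
      intro v
      show act (s2 * x5) v = _
      rw [act_mul, act_x, act_s2]
    have h1 : y * (y * y) = 1 := by
      apply Subtype.ext
      apply act_ext
      intro v
      show act (y.1 * (y.1 * y.1)) v = act 1 v
      rw [act_mul, act_mul, hay, hay, hay, sx_cube, act_one]
    have h2 := hf y (y * y)
    have h3 := hf y y
    rw [hfy] at h3
    rw [h1, f_one f hf, h3, hfy, act_add, hay, hay] at h2
    exact h2.symm

/-- the relation `τ_u τ_w ∈ ker` -/
theorem rel_x (hx : x5 ∈ ker f hf) {v w : I4 → ZMod 2} (r : Rel f hf h4 v w) :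
    Rel f hf h4 (xf v) (xf w) := by
  obtain ⟨hv, hw, r⟩ := r
  rw [← act_x, ← act_x]
  refine ⟨(Q_act x5 v).trans hv, (Q_act x5 w).trans hw, ?_⟩
  rw [← conj_tau h4 x5 v hv, ← conj_tau h4 x5 w hw]
  have : x5 * tau h4 v hv * x5⁻¹ * (x5 * tau h4 w hw * x5⁻¹) =
    x5 * (tau h4 v hv * tau h4 w hw) * x5⁻¹ := by group
  rw [this]
  exact mul_mem (mul_mem hx r) (inv_mem hx)

theorem rel_D (hx : x5 ∈ ker f hf) (i : Fin 5) :
    Rel f hf h4 (u (i + 1) (i + 2)) (u (i + 3) (i + 4)) := by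
  have base : Rel f hf h4 (u 1 2) (u 3 4) := ⟨_, _, s2_ker f hf hx⟩
  have hs : ∀ i : Fin 5, Rel f hf h4 (u (i + 1) (i + 2)) (u (i + 3) (i + 4)) →
      Rel f hf h4 (u (i + 1 + 1) (i + 1 + 2)) (u (i + 1 + 3) (i + 1 + 4)) := by
    intro i r
    have := rel_x f hf hx r
    rw [x_u, x_u] at this
    have e1 : ∀ i : Fin 5, i + 2 + 1 = i + 1 + 2 := by decide
    have e2 : ∀ i : Fin 5, i + 3 + 1 = i + 1 + 3 := by decide
    have e3 : ∀ i : Fin 5, i + 4 + 1 = i + 1 + 4 := by decide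
    rw [e1, e2, e3] at this
    exact this
  have r0 : Rel f hf h4 (u (0 + 1) (0 + 2)) (u (0 + 3) (0 + 4)) := base
  fin_cases i
  · exact r0
  · exact hs 0 r0
  · exact hs 1 (hs 0 r0)
  · exact hs 2 (hs 1 (hs 0 r0))
  · exact hs 3 (hs 2 (hs 1 (hs 0 r0)))

theorem rel_E (hx : x5 ∈ ker f hf) (i : Fin 5) :
    Rel f hf h4 (u (i + 1) (i + 4)) (u (i + 2) (i + 3)) := by
  have base : Rel f hf h4 (u 1 4) (u 2 3) := ⟨_, _, s1_ker f hf hx⟩
  have hs : ∀ i : Fin 5, Rel f hf h4 (u (i + 1) (i + 4)) (u (i + 2) (i + 3)) →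
      Rel f hf h4 (u (i + 1 + 1) (i + 1 + 4)) (u (i + 1 + 2) (i + 1 + 3)) := by
    intro i r
    have := rel_x f hf hx r
    rw [x_u, x_u] at this
    have e1 : ∀ i : Fin 5, i + 2 + 1 = i + 1 + 2 := by decide
    have e2 : ∀ i : Fin 5, i + 3 + 1 = i + 1 + 3 := by decide
    have e3 : ∀ i : Fin 5, i + 4 + 1 = i + 1 + 4 := by decide
    rw [e1, e2, e3] at this
    exact this
  have r0 : Rel f hf h4 (u (0 + 1) (0 + 4)) (u (0 + 2) (0 + 3)) := base
  fin_cases i
  · exact r0
  · exact hs 0 r0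
  · exact hs 1 (hs 0 r0)
  · exact hs 2 (hs 1 (hs 0 r0))
  · exact hs 3 (hs 2 (hs 1 (hs 0 r0)))

theorem rel_refl {w : I4 → ZMod 2} (hw : Q4 w = 1) : Rel f hf h4 w w :=
  ⟨hw, hw, by rw [tau_mul_self]; exact one_mem _⟩

theorem rel_D0 (hx : x5 ∈ ker f hf) (i : Fin 5) : Rel f hf h4 (u 0 1) (u i (i + 1)) := by
  -- `D i ~ D (i+2)`
  have hD : ∀ i : Fin 5, Rel f hf h4 (u i (i + 1)) (u (i + 2) (i + 3)) := by
    intro i
    have := rel_D f hf hx (i + 4)
    have e0 : ∀ i : Fin 5, i + 4 + 1 = i := by decide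
    have e1 : ∀ i : Fin 5, i + 4 + 2 = i + 1 := by decide
    have e2 : ∀ i : Fin 5, i + 4 + 3 = i + 2 := by decide
    have e3 : ∀ i : Fin 5, i + 4 + 4 = i + 3 := by decide
    rw [e0, e1, e2, e3] at this
    exact this
  have r0 : Rel f hf h4 (u 0 1) (u 0 1) := rel_refl f hf (u_one 0 1 (by decide))
  have r2 : Rel f hf h4 (u 0 1) (u 2 3) := hD 0
  have r4 : Rel f hf h4 (u 0 1) (u 4 0) := r2.trans f hf (hD 2)
  have r1 : Rel f hf h4 (u 0 1) (u 1 2) := r4.trans f hf (hD 4)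
  have r3 : Rel f hf h4 (u 0 1) (u 3 4) := r1.trans f hf (hD 1)
  fin_cases i
  · exact r0
  · exact r1
  · exact r2
  · exact r3
  · exact r4

theorem u_symm (i j : Fin 5) : u i j = u j i := add_comm _ _

theorem rel_all4 (hx : x5 ∈ ker f hf) {w : I4 → ZMod 2} (hw : Q4 w = 1) :
    Rel f hf h4 (u 0 1) w := by
  obtain ⟨i, rfl | rfl⟩ := all_u w hw
  · exact rel_D0 f hf hx i
  · -- `E`
    have h1 := rel_E f hf hx (i + 1)
    have e0 : ∀ i : Fin 5, i + 1 + 1 = i + 2 := by decide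
    have e1 : ∀ i : Fin 5, i + 1 + 4 = i := by decide
    have e2 : ∀ i : Fin 5, i + 1 + 3 = i + 1 + 2 + 1 := by decide
    rw [e0, e1, e2, u_symm (i + 2) i] at h1
    exact (rel_D0 f hf hx (i + 1 + 2)).trans f hf h1.symm

theorem eq_zero4 (hx : x5 ∈ ker f hf) (g : Omega (ZMod 2) Q4) : f g = 0 := by
  have hle : Omega (ZMod 2) Q4 ≤ ker f hf := by
    apply omega_le h4 (T_eq_top' h4 witt4)
    intro v w hv hw
    obtain ⟨_, _, hr⟩ := ((rel_all4 f hf hx hv).symm).trans f hf (rel_all4 f hf hx hw)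
    exact hr
  obtain ⟨_, h0⟩ := hle g.2
  exact h0

end Main

/-- **`H¹(Ω⁻(4,2), F₂⁴) = 0`.** -/
theorem principal4 (f : Omega (ZMod 2) Q4 → (I4 → ZMod 2))
    (hf : ∀ g k : Omega (ZMod 2) Q4, f (g * k) = f g + act g.1 (f k)) :
    ∃ v : I4 → ZMod 2, ∀ g : Omega (ZMod 2) Q4, f g = act g.1 v - v := by
  obtain ⟨v, hv⟩ := x_surj (f ⟨x5, x_mem⟩)
  refine ⟨v, fun g => ?_⟩
  have h1 := eq_zero4 (fun g => f g + (act g.1 v + v)) (sub_principal f hf v)
    ⟨x_mem, by
      show f ⟨x5, x_mem⟩ + (act x5 v + v) = 0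
      rw [act_x, hv, vadd_self]⟩ g
  rw [sub_eq_add']
  exact add_left_cancel' h1

end Cfsg.Agent.H817.CrossedFour
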