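import Cfsg.Agent.SporadicStructure.OrthTransTwo

/-!
# Crossed homomorphisms of `Ω` into the natural module over the field with two elements

If the isometry group of a non-degenerate quadratic form over `ZMod 2` in dimension at least 5
contains an element `x` with `x² + x + 1 = 0`, then every crossed homomorphism of its commutator
subgroup into the natural module is principal.
-/

set_option autoImplicit false

namespace Cfsg.Agent.H817.CrossedHom

open Cfsg Matrix
open scoped commutatorElement
open Cfsg.Agent.SporadicStructure.OrthTransTwo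

variable {ι : Type} [Fintype ι] [DecidableEq ι]
variable {Q : (ι → ZMod 2) → ZMod 2} {B : (ι → ZMod 2) → (ι → ZMod 2) → ZMod 2}

theorem add_left_cancel' {a b : ι → ZMod 2} (h : a + b = 0) : a = b := by
  calc a = a + (b + b) := by rw [vadd_self, add_zero]
    _ = b := by rw [← add_assoc, h, zero_add]

theorem sub_eq_add' (a b : ι → ZMod 2) : a - b = a + b := by
  rw [sub_eq_iff_eq_add, add_assoc, vadd_self, add_zero]

/-- two distinct orthogonal non-singular vectors have a common non-orthogonal non-singular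
vector -/
theorem exists_common (h : IsNdForm Q B) (hcard : 5 ≤ Fintype.card ι) {v w : ι → ZMod 2}
    (hv : Q v = 1) (hw : Q w = 1) :
    ∃ u, B v u = 1 ∧ B w u = 1 ∧ Q u = 1 := by
  have hu0 : ∃ u, B v u = 1 ∧ B w u = 1 := by
    obtain ⟨x, hx⟩ := exists_B_eq_one h (ne_zero_of_Q h hv)
    obtain ⟨y, hy⟩ := exists_B_eq_one h (ne_zero_of_Q h hw)
    rcases z_cases (B w x) with h0 | h0
    · rcases z_cases (B v y) with h1 | h1
      · exact ⟨x + y, by rw [B_add_right h, hx, h1, add_zero],
          by rw [B_add_right h, h0, hy, zero_add]⟩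
      · exact ⟨y, h1, hy⟩
    · exact ⟨x, hx, h0⟩
  obtain ⟨u, hu1, hu2⟩ := hu0
  rcases z_cases (Q u) with hq | hq
  swap
  · exact ⟨u, hu1, hu2, hq⟩
  obtain ⟨x, y, hax, hbx, hay, hby, hxy⟩ := exists_B_ne_zero h hcard v w
  by_contra hcon
  have key : ∀ z, B v z = 0 → B w z = 0 → Q z = B u z := by
    intro z hz1 hz2
    have h1 : Q (u + z) = 0 := by
      rcases z_cases (Q (u + z)) with h0 | h0
      · exact h0
      · exact absurd ⟨u + z, by rw [B_add_right h, hu1, hz1, add_zero],
          by rw [B_add_right h, hu2, hz2, add_zero], h0⟩ hcon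
    rw [h.hQ, hq] at h1
    exact zaux4 _ _ h1
  have h1 := key (x + y) (by rw [B_add_right h, hax, hay, add_zero])
    (by rw [B_add_right h, hbx, hby, add_zero])
  rw [h.hQ, B_add_right h, key x hax hbx, key y hay hby, hxy] at h1
  exact zaux5 _ h1

/-- products of two conjugate involutions lie in the commutator subgroup -/
theorem tau_mul_tau_mem (h : IsNdForm Q B) (hcard : 5 ≤ Fintype.card ι) {v w : ι → ZMod 2}
    (hv : Q v = 1) (hw : Q w = 1) : tau h v hv * tau h w hw ∈ Omega (ZMod 2) Q := by
  obtain ⟨g, hg⟩ := transitive h hcard hv hw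
  have h1 : tau h w hw = g * tau h v hv * g⁻¹ := by
    rw [conj_tau]
    exact tau_congr h _ _ hg.symm
  have h2 : tau h v hv * tau h w hw = ⁅tau h v hv, g⁆ := by
    rw [h1, commutatorElement_def, tau_inv]
    simp only [mul_assoc]
  rw [h2]
  exact Subgroup.commutator_mem_commutator (Subgroup.mem_top _) (Subgroup.mem_top _)

/-- The commutator subgroup is contained in every subgroup which contains all products of two
transvections. -/
theorem omega_le (h : IsNdForm Q B) (hT : T h = ⊤) (K : Subgroup (isometryGroup (ZMod 2) Q))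
    (hK : ∀ v w (hv : Q v = 1) (hw : Q w = 1), tau h v hv * tau h w hw ∈ K) :
    Omega (ZMod 2) Q ≤ K := by
  by_cases hex : ∃ u, Q u = 1
  swap
  · -- no transvections: the group is trivial
    have : T h = ⊥ := by
      rw [T, Subgroup.closure_eq_bot_iff]
      rintro g ⟨w, hw, -⟩
      exact absurd ⟨w, hw⟩ hex
    rw [Omega, _root_.commutator, ← hT, this, Subgroup.commutator_bot_left]
    exact bot_le
  obtain ⟨u, hu⟩ := hex
  -- the subgroup generated by the products
  set E : Subgroup (isometryGroup (ZMod 2) Q) :=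
    Subgroup.closure {g | ∃ v w, ∃ (hv : Q v = 1) (hw : Q w = 1), g = tau h v hv * tau h w hw}
    with hE
  have hEK : E ≤ K := by
    rw [hE, Subgroup.closure_le]
    rintro _ ⟨v, w, hv, hw, rfl⟩
    exact hK v w hv hw
  have hEn : E.Normal := by
    constructor
    intro n hn g
    rw [hE] at hn ⊢
    refine Subgroup.closure_induction (p := fun n _ => g * n * g⁻¹ ∈ _) ?_ ?_ ?_ ?_ hn
    · rintro _ ⟨v, w, hv, hw, rfl⟩
      apply Subgroup.subset_closure
      refine ⟨act g v, act g w, (Q_act g v).trans hv, (Q_act g w).trans hw, ?_⟩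
      rw [← conj_tau h g v hv, ← conj_tau h g w hw]
      group
    · simp
    · intro a b _ _ ha hb
      have : g * (a * b) * g⁻¹ = (g * a * g⁻¹) * (g * b * g⁻¹) := by group
      rw [this]
      exact mul_mem ha hb
    · intro a _ ha
      have : g * a⁻¹ * g⁻¹ = (g * a * g⁻¹)⁻¹ := by group
      rw [this]
      exact inv_mem ha
  refine le_trans ?_ hEK
  -- every element is in `E` or `τ_u E`
  have hcov : ∀ g : isometryGroup (ZMod 2) Q, g ∈ E ∨ tau h u hu * g ∈ E := by
    intro g
    have hg : g ∈ T h := by rw [hT]; exact Subgroup.mem_top _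
    rw [T] at hg
    refine Subgroup.closure_induction (p := fun g _ => g ∈ E ∨ tau h u hu * g ∈ E)
      ?_ ?_ ?_ ?_ hg
    · rintro _ ⟨w, hw, rfl⟩
      right
      exact Subgroup.subset_closure ⟨u, w, hu, hw, rfl⟩
    · left; exact one_mem _
    · intro a b _ _ ha hb
      rcases ha with ha | ha <;> rcases hb with hb | hb
      · left; exact mul_mem ha hb
      · right
        have : tau h u hu * (a * b) = (tau h u hu * a * (tau h u hu)⁻¹) * (tau h u hu * b) := by
          group
        rw [this]
        exact mul_mem (hEn.conj_mem _ ha _) hb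
      · right
        have : tau h u hu * (a * b) = (tau h u hu * a) * b := by group
        rw [this]
        exact mul_mem ha hb
      · left
        have : a * b = (tau h u hu)⁻¹ * (tau h u hu * a) * (tau h u hu)⁻¹⁻¹ *
            ((tau h u hu)⁻¹ * (tau h u hu)⁻¹) * (tau h u hu * b) := by
          group
        rw [this]
        refine mul_mem (mul_mem (hEn.conj_mem _ ha _) ?_) hb
        rw [tau_inv, tau_mul_self]
        exact one_mem _
    · intro a _ ha
      rcases ha with ha | ha
      · left; exact inv_mem ha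
      · right
        have : tau h u hu * a⁻¹ = tau h u hu * ((tau h u hu * a)⁻¹ ) * (tau h u hu)⁻¹ *
          (tau h u hu * tau h u hu) := by
          group
        rw [this, tau_mul_self, mul_one]
        exact hEn.conj_mem _ (inv_mem ha) _
  -- hence the quotient is commutative
  rw [Omega, _root_.commutator, Subgroup.commutator_le]
  intro a _ b _
  have hcomm : ∀ a b : isometryGroup (ZMod 2) Q, a ∈ E → ⁅a, b⁆ ∈ E := by
    intro a b ha
    rw [commutatorElement_def]
    have : a * b * a⁻¹ * b⁻¹ = a * (b * a⁻¹ * b⁻¹) := by group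
    rw [this]
    exact mul_mem ha (hEn.conj_mem _ (inv_mem ha) _)
  have hcomm' : ∀ a b : isometryGroup (ZMod 2) Q, b ∈ E → ⁅a, b⁆ ∈ E := by
    intro a b hb
    rw [← commutatorElement_inv]
    exact inv_mem (hcomm b a hb)
  rcases hcov a with ha | ha
  · exact hcomm a b ha
  rcases hcov b with hb | hb
  · exact hcomm' a b hb
  -- both in the other coset: `a = τ e`, `b = τ e'`
  have e1 : a⁻¹ * b ∈ E := by
    have : a⁻¹ * b = (tau h u hu * a)⁻¹ * (tau h u hu * b) := by group
    rw [this]
    exact mul_mem (inv_mem ha) hb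
  have e2 : ⁅a, b⁆ = ⁅a, b * a⁻¹⁆ := by
    rw [commutatorElement_def, commutatorElement_def]; group
  rw [e2]
  apply hcomm'
  have : b * a⁻¹ = a * (a⁻¹ * b) * a⁻¹ := by group
  rw [this]
  exact hEn.conj_mem _ e1 _

section Main

variable (f : Omega (ZMod 2) Q → (ι → ZMod 2))
  (hf : ∀ g k : Omega (ZMod 2) Q, f (g * k) = f g + act g.1 (f k))

include hf

theorem f_one : f 1 = 0 := by
  have h1 := hf 1 1
  rw [one_mul] at h1
  have h2 : act (1 : Omega (ZMod 2) Q).1 (f 1) = f 1 := act_one _
  rw [h2, vadd_self] at h1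
  exact h1

/-- The zero set of a crossed homomorphism, as a subgroup of the isometry group. -/
def ker : Subgroup (isometryGroup (ZMod 2) Q) where
  carrier := {g | ∃ hg : g ∈ Omega (ZMod 2) Q, f ⟨g, hg⟩ = 0}
  mul_mem' := by
    rintro a b ⟨ha, ha'⟩ ⟨hb, hb'⟩
    refine ⟨mul_mem ha hb, ?_⟩
    have := hf ⟨a, ha⟩ ⟨b, hb⟩
    rw [ha', hb', act_zero, add_zero] at this
    exact this
  one_mem' := ⟨one_mem _, f_one f hf⟩
  inv_mem' := by
    rintro a ⟨ha, ha'⟩
    refine ⟨inv_mem ha, ?_⟩
    have h1 := hf (⟨a, ha⟩⁻¹) ⟨a, ha⟩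
    rw [inv_mul_cancel, f_one f hf, ha', act_zero, add_zero] at h1
    exact h1.symm

theorem mem_ker_iff {g : isometryGroup (ZMod 2) Q} :
    g ∈ ker f hf ↔ ∃ hg : g ∈ Omega (ZMod 2) Q, f ⟨g, hg⟩ = 0 := Iff.rfl

/-- An element of `Ω` commuting with a fixed-point-free element of the zero set is in the zero
set. -/
theorem mem_ker_of_commute {y g : isometryGroup (ZMod 2) Q} (hy : y ∈ ker f hf)
    (hyf : ∀ v, act y v = v → v = 0) (hg : g ∈ Omega (ZMod 2) Q) (hc : y * g = g * y) :
    g ∈ ker f hf := by
  obtain ⟨hyO, hy0⟩ := hy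
  refine ⟨hg, ?_⟩
  apply hyf
  have h1 := hf ⟨y, hyO⟩ ⟨g, hg⟩
  have h2 := hf ⟨g, hg⟩ ⟨y, hyO⟩
  have h3 : (⟨y, hyO⟩ * ⟨g, hg⟩ : Omega (ZMod 2) Q) = ⟨g, hg⟩ * ⟨y, hyO⟩ := Subtype.ext hc
  rw [h3, h2, hy0, act_zero, add_zero, zero_add] at h1
  exact h1.symm

end Main

/-- `x² + x + 1 = 0` implies no fixed points -/
theorem fpf_of {x : isometryGroup (ZMod 2) Q} (hx : ∀ v, act x (act x v) = act x v + v)
    (v : ι → ZMod 2) (hv : act x v = v) : v = 0 := by
  have := hx v
  rw [hv, hv, vadd_self] at this
  exact this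

theorem B_x (h : IsNdForm Q B) {x : isometryGroup (ZMod 2) Q}
    (hx : ∀ v, act x (act x v) = act x v + v) {u : ι → ZMod 2} (hu : Q u = 1) :
    B u (act x u) = 1 := by
  have h0 : Q (act x u) = 1 := (Q_act x u).trans hu
  have h1 : Q (act x (act x u)) = 1 := (Q_act x _).trans h0
  rw [hx u, h.hQ, h0, hu, B_symm h] at h1
  generalize B u (act x u) = c at h1 ⊢
  revert h1; revert c; decide

/-- `τ_u τ_{xu}` commutes with `x` -/
theorem comm_s (h : IsNdForm Q B) {x : isometryGroup (ZMod 2) Q}
    (hx : ∀ v, act x (act x v) = act x v + v) {u : ι → ZMod 2} (hu : Q u = 1) :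
    x * (tau h u hu * tau h (act x u) ((Q_act x u).trans hu)) =
      (tau h u hu * tau h (act x u) ((Q_act x u).trans hu)) * x := by
  have hxu : Q (act x u) = 1 := (Q_act x u).trans hu
  have hxxu : Q (act x (act x u)) = 1 := (Q_act x _).trans hxu
  have e1 : x * tau h u hu = tau h (act x u) hxu * x := by
    rw [← conj_tau h x u hu]; group
  have e2 : x * tau h (act x u) hxu = tau h (act x (act x u)) hxxu * x := by
    rw [← conj_tau h x _ hxu]; group
  rw [← mul_assoc, e1, mul_assoc, e2, ← mul_assoc]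
  congr 1
  -- `τ_{xu} τ_{xxu} = τ_u τ_{xu}`
  apply act_ext
  intro v
  have hB : B u (act x u) = 1 := B_x h hx hu
  have hB' : B (act x u) u = 1 := by rw [B_symm h]; exact hB
  simp only [act_mul, act_tau, hx u, h.hadd, B_add_right h, B_smul_right h, B_self h, hB, hB']
  rcases z_cases (B u v) with h1 | h1 <;> rcases z_cases (B (act x u) v) with h2 | h2 <;>
    rw [h1, h2] <;> ext i <;>
    simp only [Pi.add_apply, Pi.smul_apply, smul_eq_mul] <;>
    generalize v i = p <;> generalize u i = q <;> generalize (act x u) i = r <;>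
    revert p q r <;> decide

section Main2

variable (f : Omega (ZMod 2) Q → (ι → ZMod 2))
  (hf : ∀ g k : Omega (ZMod 2) Q, f (g * k) = f g + act g.1 (f k))

/-- step: `u` and `y u` -/
theorem pair_mem (h : IsNdForm Q B) (hcard : 5 ≤ Fintype.card ι)
    {y : isometryGroup (ZMod 2) Q} (hy : ∀ v, act y (act y v) = act y v + v)
    (hyK : y ∈ ker f hf) {u : ι → ZMod 2} (hu : Q u = 1) :
    tau h u hu * tau h (act y u) ((Q_act y u).trans hu) ∈ ker f hf :=
  mem_ker_of_commute f hf hyK (fpf_of hy)
    (tau_mul_tau_mem h hcard hu ((Q_act y u).trans hu)) (comm_s h hy hu)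

/-- the relation `τ_u τ_w ∈ ker` -/
def Rel (h : IsNdForm Q B) (u w : ι → ZMod 2) : Prop :=
  ∃ (hu : Q u = 1) (hw : Q w = 1), tau h u hu * tau h w hw ∈ ker f hf

theorem Rel.symm {h : IsNdForm Q B} {u w : ι → ZMod 2} (r : Rel f hf h u w) :
    Rel f hf h w u := by
  obtain ⟨hu, hw, r⟩ := r
  refine ⟨hw, hu, ?_⟩
  have := inv_mem r
  rwa [_root_.mul_inv_rev, tau_inv, tau_inv] at this

theorem Rel.trans {h : IsNdForm Q B} {u v w : ι → ZMod 2} (r : Rel f hf h u v)
    (s : Rel f hf h v w) : Rel f hf h u w := by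
  obtain ⟨hu, hv, r⟩ := r
  obtain ⟨_, hw, s⟩ := s
  refine ⟨hu, hw, ?_⟩
  have := mul_mem r s
  have e : tau h u hu * tau h v hv * (tau h v hv * tau h w hw) =
      tau h u hu * (tau h v hv * tau h v hv) * tau h w hw := by group
  rwa [e, tau_mul_self, mul_one] at this

/-- the element `x s_u` -/
theorem y_rel (h : IsNdForm Q B) {x : isometryGroup (ZMod 2) Q}
    (hx : ∀ v, act x (act x v) = act x v + v) {u : ι → ZMod 2} (hu : Q u = 1)
    (v : ι → ZMod 2) :
    act (x * (tau h u hu * tau h (act x u) ((Q_act x u).trans hu)))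
      (act (x * (tau h u hu * tau h (act x u) ((Q_act x u).trans hu))) v) =
    act (x * (tau h u hu * tau h (act x u) ((Q_act x u).trans hu))) v + v := by
  have hB : B u (act x u) = 1 := B_x h hx hu
  have hB' : B (act x u) u = 1 := by rw [B_symm h]; exact hB
  have hBx : ∀ w, B u (act x w) = B u w + B (act x u) w := by
    intro w
    have h1 : B u (act x w) = B (act x u) (act x (act x w)) := (B_act h x _ _).symm
    rw [hx w, B_add_right h, B_act h] at h1
    have h2 : B (act x u) (act x w) = B u w := B_act h x _ _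
    -- `B (xu) (xw) = B u w`, hence
    have h3 : B (act x (act x u)) (act x (act x w)) = B u w := by rw [B_act h, B_act h]
    exact h1
  have hBx' : ∀ w, B (act x u) (act x w) = B u w := fun w => B_act h x _ _
  have hxsm : ∀ (c : ZMod 2) w, act x (c • w) = c • act x w := by
    intro c w
    rcases z_cases c with rfl | rfl
    · simp [act_zero]
    · simp
  simp only [act_mul, act_tau, hx, act_add, hxsm, B_add_right h, B_smul_right h,
    B_self h, hB, hB', hBx, hBx']
  rcases z_cases (B u v) with h1 | h1 <;> rcases z_cases (B (act x u) v) with h2 | h2 <;>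
    rw [h1, h2] <;> ext i <;>
    simp only [Pi.add_apply, Pi.smul_apply, smul_eq_mul] <;>
    generalize v i = p <;> generalize u i = q <;> generalize (act x u) i = r <;>
    generalize (act x v) i = s <;>
    revert p q r s <;> decide

theorem rel_of_pair (h : IsNdForm Q B) (hcard : 5 ≤ Fintype.card ι)
    {y : isometryGroup (ZMod 2) Q} (hy : ∀ v, act y (act y v) = act y v + v)
    (hyK : y ∈ ker f hf) {u : ι → ZMod 2} (hu : Q u = 1) : Rel f hf h u (act y u) :=
  ⟨hu, (Q_act y u).trans hu, pair_mem f hf h hcard hy hyK hu⟩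

/-- `w` and `s_u w` are related -/
theorem rel_s (h : IsNdForm Q B) (hcard : 5 ≤ Fintype.card ι)
    {x : isometryGroup (ZMod 2) Q} (hx : ∀ v, act x (act x v) = act x v + v)
    (hxK : x ∈ ker f hf) {u w : ι → ZMod 2} (hu : Q u = 1) (hw : Q w = 1) :
    Rel f hf h w (act (tau h u hu * tau h (act x u) ((Q_act x u).trans hu)) w) := by
  set s := tau h u hu * tau h (act x u) ((Q_act x u).trans hu) with hs
  have hsK : s ∈ ker f hf := pair_mem f hf h hcard hx hxK hu
  have hy := y_rel h hx hu
  rw [← hs] at hy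
  have h1 := rel_of_pair f hf h hcard hy (mul_mem hxK hsK) hw
  have hsw : Q (act s w) = 1 := (Q_act s w).trans hw
  have h2 := rel_of_pair f hf h hcard hx hxK hsw
  rw [act_mul] at h1
  exact h1.trans f hf h2.symm

/-- `w` and `s_u⁻¹ w` are related -/
theorem rel_s_inv (h : IsNdForm Q B) (hcard : 5 ≤ Fintype.card ι)
    {x : isometryGroup (ZMod 2) Q} (hx : ∀ v, act x (act x v) = act x v + v)
    (hxK : x ∈ ker f hf) {u w : ι → ZMod 2} (hu : Q u = 1) (hw : Q w = 1) :
    Rel f hf h w (act (tau h (act x u) ((Q_act x u).trans hu) * tau h u hu) w) := by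
  have hxu : Q (act x u) = 1 := (Q_act x u).trans hu
  have hw' : Q (act (tau h (act x u) hxu * tau h u hu) w) = 1 := (Q_act _ w).trans hw
  have h1 := rel_s f hf h hcard hx hxK hu hw'
  have e : act (tau h u hu * tau h (act x u) hxu)
      (act (tau h (act x u) hxu * tau h u hu) w) = w := by
    rw [← act_mul]
    have : tau h u hu * tau h (act x u) hxu * (tau h (act x u) hxu * tau h u hu) = 1 := by
      have e2 : tau h u hu * tau h (act x u) hxu * (tau h (act x u) hxu * tau h u hu) =
        tau h u hu * (tau h (act x u) hxu * tau h (act x u) hxu) * tau h u hu := by group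
      rw [e2, tau_mul_self, mul_one, tau_mul_self]
    rw [this, act_one]
  rw [e] at h1
  exact h1.symm

theorem rel_of_B (h : IsNdForm Q B) (hcard : 5 ≤ Fintype.card ι)
    {x : isometryGroup (ZMod 2) Q} (hx : ∀ v, act x (act x v) = act x v + v)
    (hxK : x ∈ ker f hf) {u w : ι → ZMod 2} (hu : Q u = 1) (hw : Q w = 1)
    (h1 : B u w = 1) (h0 : B (act x u) w = 0) : Rel f hf h u w := by
  have e1 := rel_s f hf h hcard hx hxK hu hw
  have e2 := rel_s_inv f hf h hcard hx hxK hw hu
  have f1 : act (tau h u hu * tau h (act x u) ((Q_act x u).trans hu)) w = w + u := by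
    rw [act_mul, act_tau, act_tau, h0, zero_smul, add_zero, h1, one_smul]
  have hxw : B (act x w) u = 1 := by
    have a1 : B (act x (act x u)) (act x w) = 0 := by rw [B_act h]; exact h0
    have a2 : B (act x u) (act x w) = 1 := by rw [B_act h]; exact h1
    rw [hx u, h.hadd, a2] at a1
    rw [B_symm h]
    generalize B u (act x w) = c at a1
    revert a1; revert c; decide
  have f2 : act (tau h (act x w) ((Q_act x w).trans hw) * tau h w hw) u = w + u := by
    have hwu : B w u = 1 := by rw [B_symm h]; exact h1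
    have hxww : B (act x w) w = 1 := by rw [B_symm h]; exact B_x h hx hw
    rw [act_mul, act_tau, act_tau, hwu, one_smul, B_add_right h, hxw, hxww, zadd_self,
      zero_smul, add_zero, add_comm]
  rw [f1] at e1
  rw [f2] at e2
  exact e2.trans f hf e1.symm

theorem rel_of_B' (h : IsNdForm Q B) (hcard : 5 ≤ Fintype.card ι)
    {x : isometryGroup (ZMod 2) Q} (hx : ∀ v, act x (act x v) = act x v + v)
    (hxK : x ∈ ker f hf) {u w : ι → ZMod 2} (hu : Q u = 1) (hw : Q w = 1)
    (h1 : B u w = 1) : Rel f hf h u w := by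
  rcases z_cases (B (act x u) w) with h0 | h0
  · exact rel_of_B f hf h hcard hx hxK hu hw h1 h0
  · have hxu : Q (act x u) = 1 := (Q_act x u).trans hu
    have h2 : B (act x (act x u)) w = 0 := by
      rw [hx u, h.hadd, h0, h1]; decide
    exact (rel_of_pair f hf h hcard hx hxK hu).trans f hf
      (rel_of_B f hf h hcard hx hxK hxu hw h0 h2)

theorem rel_all (h : IsNdForm Q B) (hcard : 5 ≤ Fintype.card ι)
    {x : isometryGroup (ZMod 2) Q} (hx : ∀ v, act x (act x v) = act x v + v)
    (hxK : x ∈ ker f hf) {u w : ι → ZMod 2} (hu : Q u = 1) (hw : Q w = 1) :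
    Rel f hf h u w := by
  obtain ⟨z, hz1, hz2, hz⟩ := exists_common h hcard hu hw
  refine (rel_of_B' f hf h hcard hx hxK hu hz hz1).trans f hf ?_
  exact rel_of_B' f hf h hcard hx hxK hz hw (by rw [B_symm h]; exact hz2)

/-- If a crossed homomorphism vanishes at `x`, it is zero. -/
theorem eq_zero (h : IsNdForm Q B) (hcard : 5 ≤ Fintype.card ι)
    {x : isometryGroup (ZMod 2) Q} (hx : ∀ v, act x (act x v) = act x v + v)
    (hxK : x ∈ ker f hf) (g : Omega (ZMod 2) Q) : f g = 0 := by
  have hle : Omega (ZMod 2) Q ≤ ker f hf := by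
    apply omega_le h (T_eq_top h hcard)
    intro v w hv hw
    obtain ⟨_, _, hr⟩ := rel_all f hf h hcard hx hxK hv hw
    exact hr
  obtain ⟨_, h0⟩ := hle g.2
  exact h0

end Main2

/-- subtracting a principal crossed homomorphism -/
theorem sub_principal (f : Omega (ZMod 2) Q → (ι → ZMod 2))
    (hf : ∀ g k : Omega (ZMod 2) Q, f (g * k) = f g + act g.1 (f k)) (v : ι → ZMod 2)
    (g k : Omega (ZMod 2) Q) :
    f (g * k) + (act (g * k).1 v + v) = (f g + (act g.1 v + v)) + act g.1 (f k + (act k.1 v + v)) := by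
  rw [hf, act_add, act_add]
  have e : act (g * k).1 v = act g.1 (act k.1 v) := act_mul _ _ _
  rw [e]
  have e2 : act g.1 v + act g.1 v = 0 := vadd_self _
  calc f g + act g.1 (f k) + (act g.1 (act k.1 v) + v)
      = f g + act g.1 (f k) + (act g.1 (act k.1 v) + v) + (act g.1 v + act g.1 v) := by
        rw [e2, add_zero]
    _ = _ := by abel

theorem x_mem (x : isometryGroup (ZMod 2) Q) (h : IsNdForm Q B) (hcard : 5 ≤ Fintype.card ι)
    (hx : ∀ v, act x (act x v) = act x v + v) : x ∈ Omega (ZMod 2) Q := by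
  have hsq : ∀ g : isometryGroup (ZMod 2) Q,
      Abelianization.of g * Abelianization.of g = 1 := by
    intro g
    have hg : g ∈ T h := by rw [T_eq_top h hcard]; exact Subgroup.mem_top _
    rw [T] at hg
    refine Subgroup.closure_induction
      (p := fun g _ => Abelianization.of g * Abelianization.of g = 1) ?_ ?_ ?_ ?_ hg
    · rintro _ ⟨w, hw, rfl⟩
      rw [← map_mul, tau_mul_self, map_one]
    · rw [map_one, one_mul]
    · intro a b _ _ ha hb
      rw [map_mul]
      calc Abelianization.of a * Abelianization.of b * (Abelianization.of a * Abelianization.of b)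
          = (Abelianization.of a * Abelianization.of a) *
            (Abelianization.of b * Abelianization.of b) := by
            simp only [mul_comm, mul_left_comm]
        _ = 1 := by rw [ha, hb, one_mul]
    · intro a _ ha
      rw [map_inv, ← _root_.mul_inv_rev, ha, inv_one]
  have hx3 : x * x * x * x = x := by
    apply act_ext
    intro v
    simp only [act_mul, hx, act_add]
    have : ∀ a b : ι → ZMod 2, a + b + a + (a + b) = a := by
      intro a b
      have : a + b + a + (a + b) = a + (a + a) + (b + b) := by abel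
      rw [this, vadd_self, vadd_self, add_zero, add_zero]
    exact this _ _
  have h1 : Abelianization.of x = 1 := by
    have h2 := hsq (x * x)
    rw [← map_mul, ← mul_assoc, hx3] at h2
    exact h2
  exact (QuotientGroup.eq_one_iff x).mp h1

/-- **Main lemma.** -/
theorem principal (h : IsNdForm Q B) (hcard : 5 ≤ Fintype.card ι)
    (x : isometryGroup (ZMod 2) Q) (hx : ∀ v, act x (act x v) = act x v + v)
    (f : Omega (ZMod 2) Q → (ι → ZMod 2))
    (hf : ∀ g k : Omega (ZMod 2) Q, f (g * k) = f g + act g.1 (f k)) :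
    ∃ v : ι → ZMod 2, ∀ g : Omega (ZMod 2) Q, f g = act g.1 v - v := by
  have hxO := x_mem x h hcard hx
  set v : ι → ZMod 2 := act x (f ⟨x, hxO⟩) with hv
  refine ⟨v, fun g => ?_⟩
  have h1 := eq_zero (fun g => f g + (act g.1 v + v)) (sub_principal f hf v) h hcard hx
    ⟨hxO, by
      show f ⟨x, hxO⟩ + (act x v + v) = 0
      rw [hv, hx]
      generalize f ⟨x, hxO⟩ = w
      have : w + (act x w + w + act x w) = (w + w) + (act x w + act x w) := by abel
      rw [this, vadd_self, vadd_self, add_zero]⟩ g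
  rw [sub_eq_add']
  exact add_left_cancel' h1

end Cfsg.Agent.H817.CrossedHom
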