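import Cfsg.Agent.H817.ThinBase
import Cfsg.Agent.S0253
import Cfsg.Agent.S0255

/-!
# Thin groups: the alternating groups (helper817)
-/

set_option autoImplicit false
set_option maxRecDepth 10000

namespace Cfsg.Agent.H817.Thin.Alt

open Cfsg Subgroup Equiv Cfsg.Agent.ETable

theorem alt5 : ∃ (F : Type) (_ : Field F) (_ : Fintype F),
    Nonempty (alternatingGroup (Fin 5) ≃* Matrix.ProjectiveSpecialLinearGroup (Fin 2) F) := by
  have : Fact (Nat.Prime 5) := ⟨by norm_num⟩
  obtain ⟨e⟩ := Cfsg.Agent.S0253.result (F := ZMod 5) (ZMod.card 5)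
  exact ⟨ZMod 5, inferInstance, inferInstance, ⟨e.symm⟩⟩

theorem psl3two (F : Type) [Field F] [Fintype F] (hF : Fintype.card F = 2) :
    ∃ (K : Type) (_ : Field K) (_ : Fintype K),
    Nonempty (Matrix.ProjectiveSpecialLinearGroup (Fin 3) F ≃* Matrix.ProjectiveSpecialLinearGroup (Fin 2) K) := by
  have : Fact (Nat.Prime 7) := ⟨by norm_num⟩
  obtain ⟨e⟩ := Cfsg.Agent.S0255.result (F := ZMod 7) (K := F) (ZMod.card 7) hF
  exact ⟨ZMod 7, inferInstance, inferInstance, ⟨e.symm⟩⟩

def t1 : Perm (Fin 7) := swap 0 1 * swap 2 3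
def t2 : Perm (Fin 7) := swap 0 2 * swap 1 3
def x : Perm (Fin 7) := swap 0 1 * swap 1 2
def y : Perm (Fin 7) := swap 4 5 * swap 5 6

/-- the four-group -/
def V : Subgroup (Perm (Fin 7)) where
  carrier := {1, t1, t2, t1 * t2}
  mul_mem' := by
    rintro a b (rfl | rfl | rfl | rfl) (rfl | rfl | rfl | rfl) <;>
    simp only [Set.mem_insert_iff, Set.mem_singleton_iff] <;> decide +kernel
  one_mem' := Or.inl rfl
  inv_mem' := by
    rintro a (rfl | rfl | rfl | rfl) <;>
    simp only [Set.mem_insert_iff, Set.mem_singleton_iff] <;> decide +kernel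

theorem mem_V {g : Perm (Fin 7)} : g ∈ V ↔ g = 1 ∨ g = t1 ∨ g = t2 ∨ g = t1 * t2 := Iff.rfl

theorem ewit7 : EWit 2 (alternatingGroup (Fin 7)) := by
  have mx : x ∈ alternatingGroup (Fin 7) := by rw [Perm.mem_alternatingGroup]; decide +kernel
  have my : y ∈ alternatingGroup (Fin 7) := by rw [Perm.mem_alternatingGroup]; decide +kernel
  have mt : t1 ∈ alternatingGroup (Fin 7) := by rw [Perm.mem_alternatingGroup]; decide +kernel
  have hV2 : IsPGroup 2 V := by
    rintro ⟨g, hg⟩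
    refine ⟨1, Subtype.ext ?_⟩
    change g ^ 2 ^ 1 = 1
    rcases mem_V.1 hg with rfl | rfl | rfl | rfl <;> decide +kernel
  have hn : ∀ u : Perm (Fin 7), u * t1 * u⁻¹ ∈ V → u * t2 * u⁻¹ ∈ V → ∀ g ∈ V, u * g * u⁻¹ ∈ V := by
    intro u h1 h2 g hg
    rcases mem_V.1 hg with rfl | rfl | rfl | rfl
    · rw [mul_one, mul_inv_cancel]; exact one_mem _
    · exact h1
    · exact h2
    · have : u * (t1 * t2) * u⁻¹ = (u * t1 * u⁻¹) * (u * t2 * u⁻¹) := by group
      rw [this]; exact mul_mem h1 h2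
  have hnorm : ∀ u : Perm (Fin 7), u ^ 3 = 1 → u * t1 * u⁻¹ ∈ V → u * t2 * u⁻¹ ∈ V →
      ∀ (hu : u ∈ alternatingGroup (Fin 7)),
      (⟨u, hu⟩ : alternatingGroup (Fin 7)) ∈ normalizer ((V.subgroupOf (alternatingGroup (Fin 7)) :
        Subgroup (alternatingGroup (Fin 7))) : Set (alternatingGroup (Fin 7))) := by
    intro u h3 h1 h2 hu
    rw [mem_normalizer_iff]
    intro g
    rw [mem_subgroupOf, mem_subgroupOf]
    constructor
    · exact fun hg => hn u h1 h2 _ hg
    · intro hg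
      have e1 := hn u h1 h2 _ (hn u h1 h2 _ hg)
      have e2 : u * (u * ((⟨u, hu⟩ * g * ⟨u, hu⟩⁻¹ : alternatingGroup (Fin 7)) : Perm (Fin 7)) * u⁻¹) * u⁻¹ =
          (g : Perm (Fin 7)) := by
        change u * (u * (u * g * u⁻¹) * u⁻¹) * u⁻¹ = g
        have e3 : u * (u * (u * (g : Perm (Fin 7)) * u⁻¹) * u⁻¹) * u⁻¹ = (u * u * u) * g * (u * u * u)⁻¹ := by group
        have e4 : u * u * u = 1 := by rw [← h3, pow_succ, pow_two]
        rw [e3, e4, one_mul, inv_one, mul_one]
      rw [e2] at e1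
      exact e1
  have hmem : ∀ g : Perm (Fin 7), (g = 1 ∨ g = t1 ∨ g = t2 ∨ g = t1 * t2) → g ∈ V := fun g h => h
  refine ewit_two_of_pair (p := 3) Nat.prime_three (by norm_num) (x := ⟨x, mx⟩) (y := ⟨y, my⟩)
    (Subtype.ext (by decide +kernel : x ^ 3 = 1)) (Subtype.ext (by decide +kernel : y ^ 3 = 1))
    (Subtype.ext (by decide +kernel : x * y = y * x)) ?_ ?_
    (V.subgroupOf (alternatingGroup (Fin 7))) (hV2.comap_subtype) ?_
    (hnorm x (by decide +kernel) (hmem _ (by decide +kernel)) (hmem _ (by decide +kernel)) mx)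
    (hnorm y (by decide +kernel) (hmem _ (by decide +kernel)) (hmem _ (by decide +kernel)) my)
  · intro h
    have h2 : x = 1 := congrArg Subtype.val h
    exact absurd h2 (by decide +kernel)
  · rintro ⟨k, hk⟩
    have h1 : x ^ k = y := by
      have h2 := congrArg Subtype.val hk
      simpa using h2
    have h3 : (x ^ k) 5 = y 5 := by rw [h1]
    have h4 : x 5 = 5 := by decide +kernel
    have h5 : (x ^ k) 5 = 5 := by
      have := (Function.IsFixedPt.perm_zpow (e := x) (x := 5) h4 k)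
      exact this
    rw [h5] at h3
    exact absurd h3 (by decide +kernel)
  · intro h0
    have h1 : (⟨t1, mt⟩ : alternatingGroup (Fin 7)) ∈ V.subgroupOf (alternatingGroup (Fin 7)) :=
      mem_subgroupOf.2 (mem_V.2 (Or.inr (Or.inl rfl)))
    rw [h0, mem_bot] at h1
    have h2 : t1 = 1 := congrArg Subtype.val h1
    exact absurd h2 (by decide +kernel)

/-- the row of `A_n`, `n ≥ 7` -/
theorem row_alt (n : ℕ) (hn : 7 ≤ n) : EWit 2 (alternatingGroup (Fin n)) := by
  let ι : Fin 7 ↪ Fin n := Fin.castLEEmb hn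
  have hmem : ∀ g : alternatingGroup (Fin 7), Perm.viaEmbeddingHom ι (g : Perm (Fin 7)) ∈ alternatingGroup (Fin n) := by
    intro g
    rw [Perm.mem_alternatingGroup, Perm.viaEmbeddingHom_apply, Perm.viaEmbedding, Perm.sign_extendDomain]
    exact Perm.mem_alternatingGroup.1 g.2
  refine EWit.of_injective (((Perm.viaEmbeddingHom ι).comp (alternatingGroup (Fin 7)).subtype).codRestrict
    (alternatingGroup (Fin n)) hmem) ?_ ewit7
  intro a b hab
  have h1 := congrArg Subtype.val hab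
  exact Subtype.ext (Perm.viaEmbeddingHom_injective ι h1)

end Cfsg.Agent.H817.Thin.Alt
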