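import Cfsg.Agent.H817.ThinTorus
import Cfsg.Agent.H817.ThinPSp
import Cfsg.Agent.Phan.Ext
import Cfsg.Agent.S0281
import Cfsg.Agent.LieClassical.SUBasic
import Cfsg.Agent.Omega.SQK.RowPSU2

/-!
# Thin groups: `PSU_n(q)`, `n ≥ 3` (helper817)
-/

set_option autoImplicit false

namespace Cfsg.Agent.H817.Thin.Psu

open Cfsg Subgroup Matrix Cfsg.Agent.ETable Cfsg.Agent.Phan
open Cfsg.Agent.LieClassical.SUBasic

/-! ### arithmetic -/

/-- a proper power of an odd number is not of the form `2 ^ a * 3 ^ b - 1`, `b ≤ 1` -/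
theorem pow_not_form {p k a b : ℕ} (hp : Odd p) (hp3 : 3 ≤ p) (hk : 2 ≤ k) (h : p ^ k + 1 = 2 ^ a * 3 ^ b)
    (hb : b ≤ 1) : False := by
  have h3b : 3 ^ b = 1 ∨ 3 ^ b = 3 := by
    have : b = 0 ∨ b = 1 := by omega
    rcases this with rfl | rfl
    · left; norm_num
    · right; norm_num
  rcases Nat.even_or_odd k with hk2 | hk2
  · obtain ⟨j, rfl⟩ := hk2
    have hj : 1 ≤ j := by omega
    have ho : Odd (p ^ j) := hp.pow
    obtain ⟨s, hs⟩ := ho
    have hge : 3 ≤ p ^ j := hp3.trans (Nat.le_self_pow (by omega) p)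
    have e1 : p ^ (j + j) + 1 = 4 * (s * s + s) + 2 := by
      rw [pow_add, hs]; ring
    rw [e1] at h
    have ha : a = 0 ∨ a = 1 ∨ 2 ≤ a := by omega
    rcases ha with rfl | rfl | ha
    · rw [pow_zero, one_mul] at h
      rcases h3b with h0 | h0 <;> omega
    · rw [pow_one] at h
      have : s = 0 ∨ 1 ≤ s := by omega
      rcases this with rfl | h1
      · omega
      · have : 1 ≤ s * s := Nat.mul_pos h1 h1
        rcases h3b with h0 | h0 <;> omega
    · have : 4 ∣ 2 ^ a * 3 ^ b := by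
        refine Dvd.dvd.mul_right ?_ _
        have : (4 : ℕ) = 2 ^ 2 := by norm_num
        rw [this]; exact pow_dvd_pow 2 ha
      rw [← h] at this
      omega
  · obtain ⟨j, rfl⟩ := hk2
    have hj : 1 ≤ j := by omega
    -- `p ^ (2 * j) = 1 + 2 * (p + 1) * N`
    have key : ∀ j : ℕ, ∃ N : ℕ, p ^ (2 * j) = 1 + 2 * (p + 1) * N := by
      intro j
      obtain ⟨t, ht⟩ := hp
      have hsq : p ^ 2 = 1 + 2 * (p + 1) * t := by rw [ht]; ring
      induction j with
      | zero => exact ⟨0, by simp⟩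
      | succ j ih =>
        obtain ⟨N, hN⟩ := ih
        refine ⟨N + t + N * (2 * (p + 1) * t), ?_⟩
        have : p ^ (2 * (j + 1)) = p ^ (2 * j) * p ^ 2 := by ring
        rw [this, hN, hsq]
        ring
    obtain ⟨N, hN⟩ := key j
    have hN1 : 1 ≤ N := by
      by_contra hcon
      have : N = 0 := by omega
      subst this
      rw [mul_zero, add_zero] at hN
      have : 3 ^ (2 * j) ≤ p ^ (2 * j) := Nat.pow_le_pow_left hp3 _
      have h9 : 3 ^ 1 ≤ 3 ^ (2 * j) := Nat.pow_le_pow_right (by norm_num) (by omega)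
      omega
    have e1 : p ^ (2 * j + 1) + 1 = (p + 1) * (1 + 2 * (N * p)) := by
      rw [pow_succ, hN]; ring
    rw [e1] at h
    have hodd : Nat.Coprime (1 + 2 * (N * p)) (2 ^ a) := by
      refine Nat.Coprime.pow_right a ?_
      exact Nat.coprime_two_right.2 ⟨N * p, by ring⟩
    have hd : (1 + 2 * (N * p)) ∣ 3 ^ b := by
      refine hodd.dvd_of_dvd_mul_left (n := 3 ^ b) (m := 2 ^ a) ?_
      exact ⟨p + 1, by rw [← h]; ring⟩
    have hle := Nat.le_of_dvd (by positivity) hd
    have : 3 ≤ N * p := by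
      calc 3 ≤ p := hp3
        _ = 1 * p := (one_mul p).symm
        _ ≤ N * p := Nat.mul_le_mul_right p hN1
    rcases h3b with h0 | h0 <;> omega

theorem q_of (F : Type*) [Field F] [Fintype F] {q : ℕ} (hF : Fintype.card F = q ^ 2) {p : ℕ} [CharP F p] :
    ∃ k : ℕ, 1 ≤ k ∧ q = p ^ k := by
  have hp : p.Prime := CharP.char_is_prime F p
  obtain ⟨⟨n, hn⟩, hpp, hc⟩ := FiniteField.card F p
  have h1 : q ∣ p ^ n := by
    have : Fintype.card F = p ^ n := hc
    rw [← this, hF]; exact dvd_pow_self q two_ne_zero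
  obtain ⟨m, -, hm⟩ := (Nat.dvd_prime_pow hp).1 h1
  refine ⟨m, ?_, hm⟩
  rcases Nat.eq_zero_or_pos m with h0 | h0
  · exfalso
    rw [hm, h0, pow_zero, one_pow] at hF
    have := Fintype.one_lt_card (α := F)
    omega
  · exact h0

/-! ### `PSU₃(q)`, `q` odd -/

section three

variable {F : Type*} [Field F] [Fintype F] {q : ℕ}

/-- the matrices of `SU` -/
def rep (n : ℕ) (F : Type*) [Field F] (q : ℕ) : SU n F q →* Matrix (Fin n) (Fin n) F where
  toFun g := mat g
  map_one' := rfl
  map_mul' _ _ := rfl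

/-- the frame -/
theorem frame (hF : Fintype.card F = q ^ 2) : Frame (powMonoidHom (q + 1) : Fˣ →* Fˣ).ker (rep 3 F q)
    (QuotientGroup.mk' (center (SU 3 F q))) where
  ker g := by
    rw [QuotientGroup.mk'_apply, QuotientGroup.eq_one_iff, mem_center_SU_iff hF le_rfl]
    constructor
    · rintro ⟨c, hcn, hcq, rfl⟩
      exact ⟨c, (smul_one_eq_diagonal c).symm⟩
    · rintro ⟨c, h⟩
      have h' : mat g = c • (1 : Matrix (Fin 3) (Fin 3) F) := h
      have hc3 : c ^ 3 = 1 := by
        have h1 := mat_det g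
        rw [h', Matrix.det_smul, Matrix.det_one, mul_one] at h1
        exact h1
      have hcq : c ^ (q + 1) = 1 := by
        have h1 := mat_isom g (Pi.single 0 1) (Pi.single 0 1)
        rw [h', smul_mulVec, one_mulVec] at h1
        have e : ∀ d : F, hermForm 3 F q (d • Pi.single 0 1) (d • Pi.single 0 1) = d * d ^ q := by
          intro d
          rw [hermForm_apply, Fin.sum_univ_three]
          have hq0 : q ≠ 0 := by
            rintro rfl
            have := Fintype.one_lt_card (α := F)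
            rw [hF] at this
            norm_num at this
          simp [hq0]
        rw [e] at h1
        have h3 := e 1
        rw [one_smul, one_pow, mul_one] at h3
        rw [h3, ← pow_succ'] at h1
        exact h1
      refine ⟨c, hc3, hcq, mat_inj ?_⟩
      rw [h', smul_one_eq_diagonal]
      rfl
  dg a ha b hb := by
    rw [MonoidHom.mem_ker, powMonoidHom_apply] at ha hb
    refine ⟨suDiag q ![(a : F), (b : F), (((a * b)⁻¹ : Fˣ) : F)] ?_ ?_, rfl⟩
    · rw [Fin.prod_univ_three]
      show (a : F) * b * (((a * b)⁻¹ : Fˣ) : F) = 1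
      rw [← Units.val_mul, ← Units.val_mul, mul_inv_cancel, Units.val_one]
    · intro i
      fin_cases i
      · show (a : F) ^ (q + 1) = 1
        rw [← Units.val_pow_eq_pow_val, ha, Units.val_one]
      · show (b : F) ^ (q + 1) = 1
        rw [← Units.val_pow_eq_pow_val, hb, Units.val_one]
      · show (((a * b)⁻¹ : Fˣ) : F) ^ (q + 1) = 1
        rw [← Units.val_pow_eq_pow_val, inv_pow, mul_pow, ha, hb, one_mul, inv_one, Units.val_one]

theorem card_ker (hF : Fintype.card F = q ^ 2) : Nat.card (powMonoidHom (q + 1) : Fˣ →* Fˣ).ker = q + 1 := by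
  classical
  have hcard : Nat.card Fˣ = q ^ 2 - 1 := by
    rw [Nat.card_eq_fintype_card, Fintype.card_units, hF]
  have hfac : q ^ 2 - 1 = (q + 1) * (q - 1) := by
    have := Nat.sq_sub_sq q 1
    simpa using this
  rw [IsCyclic.card_powMonoidHom_ker, hcard, hfac]
  simp

theorem two_ne_zero_of_odd (hF : Fintype.card F = q ^ 2) (hq : Odd q) : (2 : F) ≠ 0 := by
  obtain ⟨p, hpF⟩ := CharP.exists F
  have hp : p.Prime := CharP.char_is_prime F p
  obtain ⟨k, hk, hqk⟩ := q_of F hF (p := p)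
  intro h
  have h1 : (p : ℕ) ∣ 2 := (CharP.cast_eq_zero_iff F p 2).1 (by exact_mod_cast h)
  have h2 : p = 2 := (Nat.prime_dvd_prime_iff_eq hp Nat.prime_two).1 h1
  subst h2
  rw [hqk] at hq
  exact (Nat.not_odd_iff_even.2 (even_two.pow_of_ne_zero (by omega))) hq

/-- **`PSU₃(q)`, `q` odd.** -/
theorem psu3 (hF : Fintype.card F = q ^ 2) (hq : Odd q) :
    EWit 2 (PSU 3 F q) ∨ (q.Prime ∧ ∃ a b : ℕ, q + 1 = 2 ^ a * 3 ^ b ∧ b ≤ 1) := by
  have h2 := two_ne_zero_of_odd hF hq
  have hM : (-1 : Fˣ) ∈ (powMonoidHom (q + 1) : Fˣ →* Fˣ).ker := by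
    rw [MonoidHom.mem_ker, powMonoidHom_apply]
    exact (hq.add_one).neg_one_pow
  rcases (frame hF).dichotomy h2 hM with h | ⟨a, b, hab, hb⟩
  · exact Or.inl h
  · right
    rw [card_ker hF] at hab
    refine ⟨?_, a, b, hab, hb⟩
    obtain ⟨p, hpF⟩ := CharP.exists F
    have hp : p.Prime := CharP.char_is_prime F p
    obtain ⟨k, hk, hqk⟩ := q_of F hF (p := p)
    by_cases hk1 : k = 1
    · rw [hqk, hk1, pow_one]; exact hp
    · exfalso
      have hpo : Odd p := by
        rw [hqk] at hq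
        exact Nat.not_even_iff_odd.1 fun h => Nat.not_even_iff_odd.2 hq (h.pow_of_ne_zero (by omega))
      have hp3 : 3 ≤ p := by
        have := hp.two_le
        obtain ⟨t, ht⟩ := hpo
        omega
      exact pow_not_form hpo hp3 (by omega) (hqk ▸ hab) hb

end three

/-! ### `n ≥ 4` -/

section four

variable {F : Type} [Field F] [Fintype F] {q n : ℕ}

theorem center_mat (hF : Fintype.card F = q ^ 2) (hn : 3 ≤ n) {A : SU n F q} (hA : A ∈ center (SU n F q)) :
    ∃ c : F, mat A = diagonal fun _ => c := by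
  obtain ⟨c, h1, h2, rfl⟩ := (mem_center_SU_iff hF hn A).1 hA
  exact ⟨c, rfl⟩

theorem center_one (hF : Fintype.card F = q ^ 2) (hn : 3 ≤ n) {A : SU n F q} (hA : A ∈ center (SU n F q)) {i : Fin n}
    (hi : (mat A *ᵥ fun _ => 1) i = 1) : A = 1 := by
  obtain ⟨c, hc⟩ := center_mat hF hn hA
  rw [hc, mulVec_diagonal, mul_one] at hi
  apply mat_inj
  rw [hc, hi, mat_one, diagonal_one]

/-- **`PSU_n(q)`, `n ≥ 4`, `q` odd.** -/
theorem psu_odd (hF : Fintype.card F = q ^ 2) (hq : Odd q) (hn : 4 ≤ n) : EWit 2 (PSU n F q) := by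
  obtain ⟨p, hpF⟩ := CharP.exists F
  have hp : p.Prime := CharP.char_is_prime F p
  have : Fact p.Prime := ⟨hp⟩
  obtain ⟨k, hk, hqk⟩ := q_of F hF (p := p)
  have hpo : Odd p := by
    rw [hqk] at hq
    exact Nat.not_even_iff_odd.1 fun h => Nat.not_even_iff_odd.2 hq (h.pow_of_ne_zero (by omega))
  have hp2 : p ≠ 2 := by
    rintro rfl
    exact absurd hpo (by decide)
  let K : Type := GaloisField p k
  have hKfin : Fintype K := Fintype.ofFinite K
  have hK : Fintype.card K = q := by
    rw [← Nat.card_eq_fintype_card, GaloisField.card p k (by omega), hqk]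
  have hKp : CharP K p := inferInstance
  have h2K : (2 : K) ≠ 0 := by
    intro h
    have h1 : (p : ℕ) ∣ 2 := (CharP.cast_eq_zero_iff K p 2).1 (by exact_mod_cast h)
    exact hp2 ((Nat.prime_dvd_prime_iff_eq hp Nat.prime_two).1 h1)
  obtain ⟨e⟩ := Cfsg.Agent.S0281.result hF hK
  let σ : Matrix.SpecialLinearGroup (Fin 2) K ≃* SU 2 F q := e.symm
  let u : SU 2 F q := σ (Sigma.Symp.upper K (Multiplicative.ofAdd 1))
  have hu1 : u ≠ 1 := by
    intro h
    have h1 : Sigma.Symp.upper K (Multiplicative.ofAdd 1) = 1 := σ.injective (h.trans (map_one σ).symm)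
    rw [← map_one (Sigma.Symp.upper K)] at h1
    exact one_ne_zero (α := K) (Sigma.Symp.upper_injective h1)
  have hup : u ^ p = 1 := by
    show σ _ ^ p = 1
    rw [← map_pow, ← map_pow, ← ofAdd_nsmul]
    have : p • (1 : K) = 0 := by rw [nsmul_eq_mul, CharP.cast_eq_zero, zero_mul]
    rw [this, ofAdd_zero, map_one, map_one]
  let m1 : Matrix.SpecialLinearGroup (Fin 2) K := Psp.neg1 K
  let s : SU 2 F q := σ m1
  have hss : s * s = 1 := by
    show σ _ * σ _ = 1
    rw [← map_mul, Psp.neg1_sq, map_one]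
  have hs1 : s ≠ 1 := by
    intro h
    have h1 : m1 = 1 := σ.injective (h.trans (map_one σ).symm)
    have h3 := congrFun (congrFun (congrArg (fun g : Matrix.SpecialLinearGroup (Fin 2) K =>
      (g : Matrix (Fin 2) (Fin 2) K)) h1) 0) 0
    have h5 : ((m1 : Matrix.SpecialLinearGroup (Fin 2) K) : Matrix (Fin 2) (Fin 2) K) 0 0 = -1 := by
      show (-1 : Matrix (Fin 2) (Fin 2) K) 0 0 = -1
      simp
    have h4 : (-1 : K) = 1 := by
      rw [← h5]
      simpa using h3
    exact h2K (by linear_combination -h4)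
  have hsu : u * s = s * u := by
    show σ _ * σ _ = σ _ * σ _
    rw [← map_mul, ← map_mul, Psp.neg1_comm]
  let x : SU n F q := emb hF 0 (by omega) u
  let y : SU n F q := emb hF 2 (by omega) u
  let z : SU n F q := emb hF 0 (by omega) s
  have hx1 : x ≠ 1 := fun h => hu1 (emb_injective hF 0 (by omega) (h.trans (map_one _).symm))
  have hz1 : z ≠ 1 := fun h => hs1 (emb_injective hF 0 (by omega) (h.trans (map_one _).symm))
  let i2 : Fin n := ⟨2, by omega⟩
  have hfix : ∀ g : SU 2 F q, (mat (emb hF 0 (by omega) g : SU n F q) *ᵥ fun _ => 1) i2 = 1 := fun g =>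
    emb_mulVec_lt hF (by omega) g _ (Or.inr (by show 0 + 2 ≤ 2; omega))
  let π : SU n F q →* PSU n F q := QuotientGroup.mk' (center (SU n F q))
  have hker : ∀ g : SU n F q, π g = 1 → g ∈ center (SU n F q) := fun g h => by
    rwa [QuotientGroup.mk'_apply, QuotientGroup.eq_one_iff] at h
  have hxy : Commute x y := emb_comm hF (by omega) (by omega) (Or.inl (by omega)) u u
  have hzx : Commute x z := by
    exact (map_mul (emb hF 0 (by omega) : SU 2 F q →* SU n F q) u s).symm.trans
      ((congrArg (emb hF 0 (by omega) : SU 2 F q →* SU n F q) hsu).trans (map_mul _ s u))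
  have hzy : Commute y z := (emb_comm hF (by omega) (by omega) (Or.inl (by omega)) s u).symm
  have hxp : x ^ p = 1 := by
    show emb hF 0 _ u ^ p = 1
    rw [← map_pow, hup, map_one]
  have hyp : y ^ p = 1 := by
    show emb hF 2 _ u ^ p = 1
    rw [← map_pow, hup, map_one]
  have hnorm : ∀ g : SU n F q, Commute g z → π g ∈ normalizer ((zpowers (π z) : Subgroup (PSU n F q)) : Set (PSU n F q)) := by
    intro g hg
    refine centralizer_le_normalizer _ ?_
    rw [mem_centralizer_iff]
    rintro _ ⟨m, rfl⟩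
    exact (((hg.map π).zpow_right m).eq).symm
  refine ewit_two_of_pair hp hp2 (x := π x) (y := π y) ?_ ?_ (hxy.map π) ?_ ?_ (zpowers (π z)) (zpowers_two ?_) ?_
    (hnorm x hzx) (hnorm y hzy)
  · rw [← map_pow, hxp, map_one]
  · rw [← map_pow, hyp, map_one]
  · intro h
    exact hx1 (center_one hF (by omega) (hker x h) (hfix u))
  · rintro ⟨m, hm⟩
    have h1 : π (y * (x ^ m)⁻¹) = 1 := by
      rw [map_mul, map_inv, map_zpow]
      have : π x ^ m = π y := hm
      rw [this, mul_inv_cancel]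
    have h2 := hker _ h1
    obtain ⟨c, hc⟩ := center_mat hF (by omega) h2
    -- the scalar has order dividing `p`
    have hcomm : Commute y (x ^ m)⁻¹ := ((hxy.symm).zpow_right m).inv_right
    have h3 : (y * (x ^ m)⁻¹) ^ p = 1 := by
      rw [hcomm.mul_pow, hyp, one_mul, inv_pow, ← _root_.zpow_natCast, ← _root_.zpow_mul, mul_comm, _root_.zpow_mul,
        _root_.zpow_natCast, hxp, _root_.one_zpow, inv_one]
    have h4 : c ^ p = 1 := by
      have h5 : mat ((y * (x ^ m)⁻¹) ^ p) = (mat (y * (x ^ m)⁻¹)) ^ p := (rep n F q).map_pow _ _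
      rw [h3, hc, diagonal_pow, mat_one] at h5
      have h6 := congrFun (congrFun h5 i2) i2
      rw [one_apply_eq, diagonal_apply_eq] at h6
      exact h6.symm
    have h5 : c = 1 := by
      have h6 : (c - 1) ^ p = 0 := by
        rw [sub_pow_char, h4, one_pow, sub_self]
      exact sub_eq_zero.1 (pow_eq_zero_iff hp.ne_zero |>.1 h6)
    have h6 : y * (x ^ m)⁻¹ = 1 := by
      apply mat_inj
      rw [hc, h5, mat_one, diagonal_one]
    have h7 : y = x ^ m := by rwa [mul_inv_eq_one] at h6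
    -- compare on the second block
    apply hu1
    apply mat_inj
    have h8 : x ^ m = emb hF 0 (by omega) (u ^ m) := (map_zpow _ _ _).symm
    have h9 : ∀ (v : Fin 2 → F), mat u *ᵥ v = v := by
      intro v
      funext i
      let w : Fin n → F := fun j => if h : 2 ≤ (j : ℕ) ∧ (j : ℕ) < 4 then v ⟨(j : ℕ) - 2, by omega⟩ else 0
      have hw : w ∘ (sh 2 (by omega) : Fin 2 → Fin n) = v := by
        funext j
        show (if h : 2 ≤ 2 + (j : ℕ) ∧ 2 + (j : ℕ) < 4 then v ⟨2 + (j : ℕ) - 2, by omega⟩ else 0) = v j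
        rw [dif_pos ⟨by omega, by omega⟩]
        congr 1
        apply Fin.ext
        show 2 + (j : ℕ) - 2 = j
        omega
      have e1 := emb_mulVec_sh hF (n := n) (k := 2) (by omega) u w i
      have e2 : (mat (emb hF 0 (by omega) (u ^ m) : SU n F q) *ᵥ w) (sh 2 (by omega) i) = w (sh 2 (by omega) i) :=
        emb_mulVec_lt hF (by omega) (u ^ m) w (Or.inr (by show 0 + 2 ≤ 2 + (i : ℕ); omega))
      have e3 : (emb hF 2 (by omega) u : SU n F q) = emb hF 0 (by omega) (u ^ m) := h7.trans h8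
      rw [e3, e2, hw] at e1
      rw [← e1]
      exact congrFun hw i
    rw [mat_one]
    ext i j
    have := congrFun (h9 (Pi.single j 1)) i
    rw [mulVec_single_one, col_apply] at this
    rw [this, one_apply, Pi.single_apply]
  · rw [← map_mul]
    show π (emb hF 0 _ s * emb hF 0 _ s) = 1
    rw [← map_mul, hss, map_one, map_one]
  · intro h
    rw [zpowers_eq_bot] at h
    exact hz1 (center_one hF (by omega) (hker z h) (hfix s))

/-- characters of the torus -/
def chiU (r k : ℕ) (F : Type*) [Field F] : Fin (k + 4) → (RU 2 r F →* Fˣ) :=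
  Fin.cons (cRU 0) (Fin.cons (cRU 0) (Fin.cons (cRU 1) (Fin.cons (cRU 0 * cRU 0 * cRU 1)⁻¹ (fun _ => 1))))

omit [Fintype F] in
theorem prod_chiU (r k : ℕ) : ∏ i, chiU r k F i = 1 := by
  unfold chiU
  rw [Fin.prod_univ_succ, Fin.prod_univ_succ, Fin.prod_univ_succ, Fin.prod_univ_succ]
  simp only [Fin.cons_zero, Fin.cons_succ, Finset.prod_const_one, mul_one]
  rw [← mul_assoc, ← mul_assoc]
  ext m
  simp

omit [Fintype F] in
theorem chiU_pow {r k : ℕ} (i : Fin (k + 4)) (m : RU 2 r F) : chiU r k F i m ^ r = 1 := by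
  unfold chiU
  refine Fin.cases ?_ (fun i => ?_) i
  · exact cRU_pow 0 m
  refine Fin.cases ?_ (fun i => ?_) i
  · exact cRU_pow 0 m
  refine Fin.cases ?_ (fun i => ?_) i
  · exact cRU_pow 1 m
  refine Fin.cases ?_ (fun i => ?_) i
  · show ((cRU 0 * cRU 0 * cRU 1)⁻¹ : RU 2 r F →* Fˣ) m ^ r = 1
    rw [← map_pow, RU_pow, map_one]
  · show (1 : Fˣ) ^ r = 1
    exact one_pow r

/-- the torus in `SU` -/
def torU (hF : Fintype.card F = q ^ 2) {r : ℕ} (hr : r ∣ q + 1) (k : ℕ) : RU 2 r F →* SU (k + 4) F q where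
  toFun m := suDiag q (fun i => ((chiU r k F i m : Fˣ) : F))
    (by
      have := prod_pi _ (prod_chiU (F := F) r k) m
      rw [← Units.coe_prod, ← Units.val_one]
      exact congrArg _ this)
    (fun i => by
      obtain ⟨t, ht⟩ := hr
      rw [← Units.val_pow_eq_pow_val, ht, pow_mul, chiU_pow, one_pow, Units.val_one])
  map_one' := mat_inj (by
    show diagonal _ = 1
    rw [← diagonal_one]
    congr 1
    funext i
    simp)
  map_mul' a b := mat_inj (by
    rw [mat_mul]
    show diagonal _ = diagonal _ * diagonal _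
    rw [diagonal_mul_diagonal]
    congr 1
    funext i
    simp)

theorem mat_torU (hF : Fintype.card F = q ^ 2) {r : ℕ} (hr : r ∣ q + 1) (k : ℕ) (m : RU 2 r F) :
    mat (torU hF hr k m) = diagonal fun i => ((chiU r k F i m : Fˣ) : F) := rfl

/-- **`PSU_n(q)`, `n ≥ 4`, `q` even.** -/
theorem psu_even (hF : Fintype.card F = q ^ 2) (hq : Even q) (hn : 4 ≤ n) : EWit 2 (PSU n F q) := by
  classical
  obtain ⟨k, rfl⟩ : ∃ k, n = k + 4 := ⟨n - 4, by omega⟩
  have hch : CharP F 2 := Omega.SQK.RowPSU2.charP_two (F := F) (by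
    rw [hF]
    exact Nat.even_pow.2 ⟨hq, two_ne_zero⟩)
  have hq0 : q ≠ 0 := by
    rintro rfl
    exact Fintype.card_ne_zero (α := F) (by rw [hF]; rfl)
  obtain ⟨r, hr, hrd⟩ := Nat.exists_prime_and_dvd (n := q + 1) (by omega)
  have hr2 : r ≠ 2 := by
    rintro rfl
    obtain ⟨a, ha⟩ := hq
    omega
  have hrF : r ∣ Nat.card F - 1 := by
    rw [Nat.card_eq_fintype_card, hF, show q ^ 2 - 1 = (q + 1) * (q - 1) by
      rw [← Nat.sq_sub_sq, one_pow]]
    exact hrd.mul_right _
  have h01 : (0 : Fin (k + 4)) ≠ 1 := by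
    rw [Ne, Fin.ext_iff]; simp
  let t : SU (k + 4) F q := ⟨Omega.SQK.RowPSU2.pml (Equiv.swap 0 1), Omega.SQK.RowPSU2.mem_SU_pml _⟩
  have htm : mat t = (Equiv.swap (0 : Fin (k + 4)) 1).permMatrix F := rfl
  have htt : t * t = 1 := by
    apply mat_inj
    rw [mat_mul, htm, mat_one, ← Matrix.permMatrix_mul]
    rw [Equiv.swap_mul_self]
    exact Matrix.permMatrix_one
  have htc : t ∉ center (SU (k + 4) F q) := by
    intro h
    obtain ⟨c, hc⟩ := center_mat hF (by omega) h
    rw [htm] at hc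
    have h1 := congrFun (congrFun hc 0) 1
    rw [diagonal_apply_ne _ h01] at h1
    simp [Equiv.Perm.permMatrix, PEquiv.toMatrix_apply] at h1
  refine ⟨r, hr, hr2, Wit.of_quot (center _) (torU hF hrd k) ?_ RU_pow (card_RU hr hrF 2).ge (zpowers t)
    (zpowers_two htt) (fun hle => htc (hle (mem_zpowers t))) ?_⟩
  · intro m hm
    obtain ⟨c, hc⟩ := center_mat hF (by omega) hm
    rw [mat_torU] at hc
    have hall : ∀ i, ((chiU r k F i m : Fˣ) : F) = c := fun i => by
      have := congrFun (congrFun hc i) i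
      rwa [diagonal_apply_eq, diagonal_apply_eq] at this
    have c0 : cRU 0 m = cRU 1 m := Units.ext ((hall 0).trans (hall 2).symm)
    have c1 : cRU 0 m = (cRU 0 m * cRU 0 m * cRU 1 m)⁻¹ := Units.ext ((hall 0).trans (hall 3).symm)
    rw [← c0] at c1
    have h4 : (cRU 0 m) ^ 4 = 1 := by
      calc (cRU 0 m) ^ 4 = cRU 0 m * (cRU 0 m * cRU 0 m * cRU 0 m) := by
            rw [pow_succ', pow_succ', pow_succ', pow_one, mul_assoc]
        _ = 1 := by
            nth_rw 1 [c1]
            rw [inv_mul_cancel]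
    have h5 := eq_one_of_pow_four hr hr2 (cRU_pow 0 m) h4
    refine RU_ext fun j => ?_
    fin_cases j
    · exact h5
    · exact c0.symm.trans h5
  · intro m
    refine centralizer_le_normalizer _ ?_
    rw [mem_centralizer_iff]
    rintro _ ⟨j, rfl⟩
    have hcm : Commute (torU hF hrd k m) t := by
      refine mat_inj ?_
      rw [mat_mul, mat_mul, mat_torU, htm]
      have e := (Omega.SQK.RowPSU2.swap_iff (F := F) (0 : Fin (k + 4)) 1
        (fun i => ((chiU r k F i m : Fˣ) : F)) (by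
          have := prod_pi _ (prod_chiU (F := F) r k) m
          rw [← Units.coe_prod, ← Units.val_one]
          exact congrArg _ this)).2 rfl
      exact congrArg Subtype.val e.eq.symm
    exact ((hcm.zpow_right j).eq).symm

end four

/-- **`PSU_n(q)`, `n ≥ 4`.** -/
theorem psu4 (F : Type) [Field F] [Fintype F] (n q : ℕ) (hF : Fintype.card F = q ^ 2) (hn : 4 ≤ n) :
    EWit 2 (PSU n F q) := by
  rcases Nat.even_or_odd q with hq | hq
  · exact psu_even hF hq hn
  · exact psu_odd hF hq hn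

end Cfsg.Agent.H817.Thin.Psu
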