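import Cfsg.Agent.H817.ThinG2
import Cfsg.Agent.ChevalleyStructure.D4Perfect
import Cfsg.Agent.ChevalleyStructure.D4U
import Cfsg.Agent.ChevalleyStructure.D4Twisted
import Cfsg.Agent.S1067

/-!
# Thin groups: `³D₄(q)`, `q` even (helper817)
-/

set_option autoImplicit false

namespace Cfsg.Agent.H817.Thin.TwDFour

open Cfsg Cfsg.Lie Subgroup Cfsg.Agent.ETable Cfsg.Agent.ETable.Exc
open Cfsg.Agent.ChevalleyStructure
open Cfsg.Agent.ChevalleyStructure.D4Perfect

variable {K : Type*} [Field K] {φ : K →+* K} {q : ℕ}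

theorem xG_eq_elts (r : ℕ) (t : K) : (D4Comm.xG r t : GL chevD4.Idx K) = Elts.xG inList_D4 r t := Units.ext rfl

theorem hR_eq_elts {r : ℕ} (hr : r < 24) (t : K) : (D4NConj.hR r t : GL chevD4.Idx K) = Elts.hG inList_D4 r t :=
  Units.ext ((D4NConj.coe_hR hr t).trans (Elts.coe_hG inList_D4 r t).symm)

theorem simples : chevD4.simple 0 = 18 ∧ chevD4.simple 1 = 14 ∧ chevD4.simple 2 = 13 ∧ chevD4.simple 3 = 12 := by
  decide +kernel

theorem ranks (i : ℕ) (h : i < 4) : i < chevD4.rank := h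

/-- the weights of `h_A(c)` -/
def mA : ℕ → ℤ := fun s => chevD4.cartan 0 s + chevD4.cartan 2 s + chevD4.cartan 3 s

theorem mA_val : mA 18 = 2 ∧ mA 13 = 2 ∧ mA 12 = 2 ∧ mA 23 = 0 ∧ chevD4.cartan 1 23 = 1 := by decide +kernel

theorem X_eq (t : K) : D4Fixed.X φ t = Elts.xG inList_D4 18 t * Elts.xG inList_D4 13 (φ t) *
    Elts.xG inList_D4 12 (φ (φ t)) := by
  rw [X_def', xG_eq_elts, xG_eq_elts, xG_eq_elts]

theorem X_inj {t u : K} (h : D4Fixed.X φ t = D4Fixed.X φ u) : t = u := by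
  have e : ∀ t : K, D4U.elt φ 0 t 0 0 0 0 = D4Fixed.X φ t := by
    intro t
    rw [D4U.elt_eq, X_def']
    simp only [map_zero, neg_zero, D4Comm.xG_zero, one_mul, mul_one]
  rw [← e, ← e] at h
  exact (D4U.elt_inj h).2.1

/-- **`³D₄(q)`, `q > 2` even.** -/
theorem twD4 (K : Type*) [Field K] [Finite K] (q : ℕ) (hq : IsPrimePow q) (he : Even q) (hq2 : 2 < q)
    (hK : Nat.card K = q ^ 3) : EWit 2 (twistedD4 K q) := by
  have := Fintype.ofFinite K
  have hK' : Fintype.card K = q ^ 3 := by rw [← Nat.card_eq_fintype_card, hK]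
  obtain ⟨φ, hφ⟩ := D4Fixed.exists_frob hq hK'
  obtain ⟨ℓ, k, hℓ, hk, hℓq⟩ := hq
  have hℓp : ℓ.Prime := hℓ.nat_prime
  have hℓ2 : ℓ = 2 := by
    have : 2 ∣ ℓ := by
      rw [← hℓq] at he
      exact Nat.prime_two.dvd_of_dvd_pow he.two_dvd
    exact ((Nat.prime_dvd_prime_iff_eq Nat.prime_two hℓp).1 this).symm
  subst hℓ2
  have hch : CharP K 2 := charP_of_card_eq_prime_pow (f := k * 3) (by rw [hK', ← hℓq, pow_mul])
  have h2 : (2 : K) = 0 := two_eq_zero_of_charP
  obtain ⟨p, hp, hp2, hd⟩ := exists_prime_of_even he hq2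
  have hd' : p ∣ Nat.card K - 1 := by
    rw [hK]
    refine hd.trans ?_
    have := Nat.sub_dvd_pow_sub_pow q 1 3
    simpa using this
  obtain ⟨c, hc, hc1⟩ := exists_unit_of_dvd K hp hd'
  have hc0 : c ≠ 0 := by
    rintro rfl
    rw [zero_pow hp.ne_zero] at hc
    exact zero_ne_one hc
  have hφc : φ c = c := by
    obtain ⟨k, hk⟩ := hd
    have h1 : c ^ (q - 1) = 1 := by rw [hk, pow_mul, hc, one_pow]
    have h3 : q = (q - 1) + 1 := by omega
    rw [hφ, h3, pow_succ, h1, one_mul]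
  have hD := inList_D4
  obtain ⟨s0, s1, s2, s3⟩ := simples
  obtain ⟨v18, v13, v12, v23, w23⟩ := mA_val
  have t0 := tor_hG' hD (ranks 0 (by norm_num)) s0 hc0
  have t1 := tor_hG' hD (ranks 1 (by norm_num)) s1 hc0
  have t2 := tor_hG' hD (ranks 2 (by norm_num)) s2 hc0
  have t3 := tor_hG' hD (ranks 3 (by norm_num)) s3 hc0
  have tA : Tor chevD4 mA c (Elts.hG hD 18 c * Elts.hG hD 13 c * Elts.hG hD 12 c) := (t0.mul t2).mul t3
  have mAm : Elts.hG hD 18 c * Elts.hG hD 13 c * Elts.hG hD 12 c ∈ twistedD4 K q := by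
    have h := hA_mem hφ c
    rwa [hA, hφc, hφc, hR_eq_elts (by norm_num), hR_eq_elts (by norm_num), hR_eq_elts (by norm_num)] at h
  have mBm : Elts.hG hD 14 c ∈ twistedD4 K q := by
    have h := D4Twisted.h14_mem hφ hφc
    rwa [hR_eq_elts (by norm_num)] at h
  have mem23 : ∀ {v : K}, φ v = v → Elts.xG hD 23 v ∈ twistedD4 K q := fun {v} hv => by
    rw [← xG_eq_elts]; exact C_le (x23_mem_C hφ hv)
  set H := twistedD4 K q with hH
  set a : Fin 2 → GL chevD4.Idx K := ![Elts.hG hD 18 c * Elts.hG hD 13 c * Elts.hG hD 12 c, Elts.hG hD 14 c] with ha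
  set m : Fin 2 → ℕ → ℤ := ![mA, fun s => chevD4.cartan 1 s] with hm
  have haT : ∀ i, Tor chevD4 (m i) c (a i) := by
    intro i
    fin_cases i
    · exact tA
    · exact t1
  have haH : ∀ i, a i ∈ H := by
    intro i
    fin_cases i
    · exact mAm
    · exact mBm
  set l : Fin 2 → GL chevD4.Idx K := ![D4Fixed.X φ 1, Elts.xG hD 23 1] with hl
  have hlH : ∀ i, l i ∈ H := by
    intro i
    fin_cases i
    · exact D4Fixed.X_mem hφ 1
    · exact mem23 (map_one φ)
  let T : Subgroup H := (rootT hD φ 23).subgroupOf H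
  refine ⟨p, hp, hp2, ?_⟩
  obtain ⟨E, hE⟩ := El.of_tri hp T (fun i => (⟨a i, haH i⟩ : H)) (fun i => (⟨l i, hlH i⟩ : H))
    (fun i j => Subtype.ext ((haT i).commute (haT j)).eq) (fun i => Subtype.ext ((haT i).pow hc))
    (fun i j hij => by
      have hi : i = 0 := by omega
      have hj : j = 1 := by omega
      subst hi; subst hj
      exact Subtype.ext (tA.comm_xG hD (s := 23) (by decide) v23 1).eq)
    (fun i h => by
      have h1 : a i * l i = l i * a i := congrArg (fun z : H => (z : GL chevD4.Idx K)) h.eq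
      have hi : i = 0 ∨ i = 1 := by omega
      rcases hi with rfl | rfl
      · have e1 : a 0 * l 0 = D4Fixed.X φ (c ^ 2) * a 0 := by
          show (Elts.hG hD 18 c * Elts.hG hD 13 c * Elts.hG hD 12 c) * D4Fixed.X φ 1 =
            D4Fixed.X φ (c ^ 2) * (Elts.hG hD 18 c * Elts.hG hD 13 c * Elts.hG hD 12 c)
          rw [X_eq, X_eq, map_one, map_one, map_pow, map_pow, hφc, hφc]
          set g := Elts.hG hD 18 c * Elts.hG hD 13 c * Elts.hG hD 12 c with hg
          have r18 : g * Elts.xG hD 18 1 = Elts.xG hD 18 (c ^ 2) * g := by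
            have := tA.xG hD (s := 18) (by decide) 1
            rw [v18, mul_one] at this
            exact_mod_cast this
          have r13 : g * Elts.xG hD 13 1 = Elts.xG hD 13 (c ^ 2) * g := by
            have := tA.xG hD (s := 13) (by decide) 1
            rw [v13, mul_one] at this
            exact_mod_cast this
          have r12 : g * Elts.xG hD 12 1 = Elts.xG hD 12 (c ^ 2) * g := by
            have := tA.xG hD (s := 12) (by decide) 1
            rw [v12, mul_one] at this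
            exact_mod_cast this
          rw [← mul_assoc, ← mul_assoc, r18, mul_assoc _ g, r13, mul_assoc, mul_assoc, r12]
          simp only [mul_assoc]
        rw [e1] at h1
        have h3 := X_inj (mul_right_cancel h1)
        have hpo := hp.odd_of_ne_two hp2
        obtain ⟨s, hs⟩ := hpo
        rw [hs, pow_succ, pow_mul, h3, one_pow, one_mul] at hc
        exact hc1 hc
      · have e1 : a 1 * l 1 = Elts.xG hD 23 c * a 1 := by
          have := t1.xG hD (s := 23) (by decide) 1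
          rw [w23, mul_one, zpow_one] at this
          exact this
        rw [e1] at h1
        exact hc1 (Elts.xG_injective hD (by decide) (mul_right_cancel h1)))
    (fun i => by
      rw [mem_normalizer_iff]
      have hconj : ∀ (c' : K) (t : K), φ c' = c' → φ t = t → φ (c' ^ (m i 23) * t) = c' ^ (m i 23) * t := by
        intro c' t h1 h2
        rw [map_mul, map_zpow₀, h1, h2]
      have hxa : ∀ t : K, a i * Elts.xG hD 23 t * (a i)⁻¹ = Elts.xG hD 23 (c ^ (m i 23) * t) := fun t => by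
        rw [(haT i).xG hD (by decide), mul_inv_cancel_right]
      intro x
      rw [mem_subgroupOf, mem_subgroupOf, mem_rootT, mem_rootT]
      show _ ↔ ∃ t, φ t = t ∧ a i * (x : GL chevD4.Idx K) * (a i)⁻¹ = Elts.xG hD 23 t
      constructor
      · rintro ⟨t, ht, hx⟩
        exact ⟨_, hconj c t hφc ht, by rw [hx, hxa]⟩
      · rintro ⟨t, ht, hx⟩
        refine ⟨c⁻¹ ^ (m i 23) * t, hconj c⁻¹ t (by rw [map_inv₀, hφc]) ht, ?_⟩
        have h3 := hxa (c⁻¹ ^ (m i 23) * t)
        rw [← mul_assoc, inv_zpow, mul_inv_cancel₀ (zpow_ne_zero _ (haT i).ne), one_mul, ← hx] at h3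
        rw [inv_zpow]
        exact (mul_left_cancel (mul_right_cancel h3)).symm)
  refine hE.wit ?_ ?_
  · rintro ⟨x, hx⟩
    refine ⟨1, ?_⟩
    apply Subtype.ext
    apply Subtype.ext
    obtain ⟨t, -, hx'⟩ := hx
    show (x : GL chevD4.Idx K) ^ (2 ^ 1) = 1
    have hx'' : (x : GL chevD4.Idx K) = Elts.xG hD 23 t := hx'
    rw [hx'', pow_one, pow_two, Elts.xG_add, ← two_mul, h2, zero_mul, Elts.xG_zero]
  · intro h
    have h1 : (⟨Elts.xG hD 23 1, mem23 (map_one φ)⟩ : H) ∈ T := ⟨1, map_one φ, rfl⟩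
    rw [h, mem_bot] at h1
    have h3 : Elts.xG hD 23 (1 : K) = 1 := congrArg (fun z : H => (z : GL chevD4.Idx K)) h1
    exact one_ne_zero ((Elts.xG_eq_one_iff hD (by decide) _).1 h3)

/-- the order of `³D₄(2)` -/
theorem card_two (K : Type) [Field K] [Fintype K] (hK : Fintype.card K = 8) :
    Nat.card (Lie.twistedD4 K 2) = 211341312 := by
  rw [Cfsg.Agent.S1067.result (q := 2) (Nat.prime_two.isPrimePow) (by rw [hK]; norm_num)]; norm_num

end Cfsg.Agent.H817.Thin.TwDFour
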