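import Cfsg.Agent.H817.ThinBase
import Cfsg.Agent.KFacts.TwF4.Full
import Cfsg.Agent.KFacts.TwF4.CentZ
import Cfsg.Agent.KFacts.TwF4.Arc
import Cfsg.Agent.S1074

/-!
# Thin groups: `²F₄(q)` and the order of the Tits group (helper817)
-/

set_option autoImplicit false

namespace Cfsg.Agent.H817.Thin.TwFFour

open Cfsg Cfsg.Lie Subgroup Cfsg.Agent.ETable
open Cfsg.Agent.KFacts.TwF4

/-- the torus as a homomorphism -/
def hHom {F : Type*} [Field F] {σ : F →+* F} {G : Type*} [Group G] (S : Full σ G) : Fˣ × Fˣ →* G where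
  toFun p := S.h p.1 p.2
  map_one' := S.h_one
  map_mul' a b := (S.h_mul a.1 a.2 b.1 b.2).symm

theorem ewit {F : Type*} [Field F] [Finite F] {σ : F →+* F} {G : Type*} [Group G] [Finite G] (S : Full σ G) {m : ℕ}
    (hm : 1 ≤ m) (hF : Nat.card F = 2 ^ (2 * m + 1)) : EWit 2 G := by
  obtain ⟨p, hp, hd⟩ := Nat.exists_prime_and_dvd (n := Nat.card F - 1) (by
    rw [hF]
    have : 2 ^ 3 ≤ 2 ^ (2 * m + 1) := Nat.pow_le_pow_right (by norm_num) (by omega)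
    omega)
  have hp2 : p ≠ 2 := by
    rintro rfl
    have h1 : 2 ∣ Nat.card F := by rw [hF]; exact dvd_pow_self 2 (by omega)
    have : 1 < Nat.card F := Finite.one_lt_card
    omega
  have hfact : Fact p.Prime := ⟨hp⟩
  obtain ⟨c, hc⟩ := exists_prime_orderOf_dvd_card' (G := Fˣ) p (by rw [Nat.card_units]; exact hd)
  have hcp : c ^ p = 1 := by rw [← hc]; exact pow_orderOf_eq_one c
  have hc1 : c ≠ 1 := by
    rintro rfl
    rw [orderOf_one] at hc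
    exact hp.one_lt.ne hc
  have hinj : Function.Injective (hHom S) := by
    rintro ⟨a, b⟩ ⟨a', b'⟩ h
    obtain ⟨h1, h2⟩ := S.h_inj _ _ _ _ h
    exact Prod.ext h1 h2
  have hconj : ∀ q : Fˣ × Fˣ, hHom S q ∈ normalizer ((S.XZ 1 : Subgroup G) : Set G) := by
    intro q
    rw [mem_normalizer_iff]
    intro x
    refine ⟨fun h => Arc.h_X S q.1 q.2 1 x h, fun h => ?_⟩
    have h1 := Arc.h_X S q.1⁻¹ q.2⁻¹ 1 _ h
    rw [← S.h_inv] at h1
    have e : (S.h q.1 q.2)⁻¹ * (hHom S q * x * (hHom S q)⁻¹) * (S.h q.1 q.2)⁻¹⁻¹ = x := by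
      show (S.h q.1 q.2)⁻¹ * (S.h q.1 q.2 * x * (S.h q.1 q.2)⁻¹) * (S.h q.1 q.2)⁻¹⁻¹ = x
      group
    rwa [e] at h1
  refine ewit_two_of_pair hp hp2 (x := hHom S (c, 1)) (y := hHom S (1, c)) ?_ ?_ ?_ ?_ ?_ (S.XZ 1) ?_ ?_
    (hconj _) (hconj _)
  · rw [← map_pow, Prod.pow_mk, hcp, one_pow]; exact map_one _
  · rw [← map_pow, Prod.pow_mk, hcp, one_pow]; exact map_one _
  · show _ * _ = _ * _
    rw [← map_mul, ← map_mul, mul_comm]
  · intro h
    have h1 := hinj (h.trans (map_one _).symm)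
    exact hc1 (congrArg Prod.fst h1)
  · rintro ⟨k, hk⟩
    have h1 : hHom S ((c, 1) ^ k) = hHom S (1, c) := (map_zpow _ _ _).trans hk
    have h2 := congrArg Prod.snd (hinj h1)
    have h3 : ((c, 1) ^ k : Fˣ × Fˣ).2 = 1 := by
      show (1 : Fˣ) ^ k = 1
      exact one_zpow k
    exact hc1 (h2.symm.trans h3)
  · rintro ⟨x, hx⟩
    obtain ⟨t, rfl⟩ := (Arc.mem_X1 S).1 hx
    refine ⟨1, Subtype.ext ?_⟩
    show (S.o 0 t) ^ (2 ^ 1) = 1
    rw [pow_one, pow_two]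
    nth_rw 1 [← Arc.o_inv S 0 t]
    exact inv_mul_cancel _
  · intro h
    have h1 : S.o 0 1 ∈ S.XZ 1 := (Arc.mem_X1 S).2 ⟨1, rfl⟩
    rw [h, mem_bot, ← S.o_zero 0] at h1
    exact one_ne_zero (S.injO 0 h1)

/-- **`²F₄(q)`, `q ≥ 8`.** -/
theorem twF4 (K : Type) [Field K] [Fintype K] (m : ℕ) (hm : 1 ≤ m) (hK : Fintype.card K = 2 ^ (2 * m + 1)) :
    EWit 2 (Lie.twistedF4 K (2 ^ m)) := by
  obtain ⟨φ, hφ⟩ := Cfsg.Agent.ChevalleyStructure.TwF4.TwistedFix.exists_rln hK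
  have := Cfsg.Agent.ChevalleyStructure.TwF4.Twisted.charP_two hK
  exact ewit (Inst.full hK hφ) hm (by rw [Nat.card_eq_fintype_card, hK])

/-- the order of the Tits group -/
theorem card_Tits : Nat.card Lie.TitsGroup = 17971200 := S1074.result.2.2.2.trans (by norm_num)

end Cfsg.Agent.H817.Thin.TwFFour
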